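import Cfsg.Agent.H73.Focal.Basic
import Mathlib

/-! Quadratic action on an irreducible module glued from one noncentral layer. -/

set_option autoImplicit false

namespace Cfsg.Agent.H73.Focal

variable {A : Type*} [AddCommGroup A] {p : ℕ} [hp : Fact p.Prime]

theorem eq_zero_of_add_self (hp2 : p ≠ 2) (hA : ∀ a : A, p • a = 0) {a : A} (h : a + a = 0) : a = 0 := by
  obtain ⟨m, hm⟩ : Odd p := hp.out.odd_of_ne_two hp2
  have h1 := hA a
  rw [hm, add_nsmul, mul_nsmul, one_nsmul, two_nsmul, h, smul_zero, zero_add] at h1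
  exact h1

theorem half_mem (hp2 : p ≠ 2) (hA : ∀ a : A, p • a = 0) {H : AddSubgroup A} {a : A} (h : a + a ∈ H) :
    a ∈ H := by
  obtain ⟨m, hm⟩ : Odd p := hp.out.odd_of_ne_two hp2
  have h1 := H.nsmul_mem h (m + 1)
  rwa [← two_nsmul, ← mul_nsmul, show 2 * (m + 1) = p + 1 by omega, add_nsmul, hA, zero_add,
    one_nsmul] at h1

theorem exists_half (hp2 : p ≠ 2) (hA : ∀ a : A, p • a = 0) (a : A) : ∃ b : A, b + b = a := by
  obtain ⟨m, hm⟩ : Odd p := hp.out.odd_of_ne_two hp2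
  exact ⟨(m + 1) • a, by rw [← add_nsmul, show m + 1 + (m + 1) = p + 1 by omega, add_nsmul, hA, zero_add,
    one_nsmul]⟩

variable {G : Type*} [Group G] (ρ : G →* AddMonoid.End A)

theorem rho_mul (g h : G) (a : A) : ρ g (ρ h a) = ρ (g * h) a := by rw [map_mul]; rfl

theorem rho_one (a : A) : ρ 1 a = a := by rw [map_one]; rfl

/-- A `p'`-element fixing an element modulo its fixed points fixes it. -/
theorem fixed_of_twice [Finite G] (hA : ∀ a : A, p • a = 0) {x : G} (hx : (orderOf x).Coprime p) {d : A}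
    (h : ρ x (ρ x d - d) = ρ x d - d) : ρ x d = d := by
  set e := ρ x d - d with he
  have key : ∀ n : ℕ, ρ (x ^ n) d = d + n • e := by
    intro n
    induction n with
    | zero => simp [rho_one]
    | succ n ih =>
      rw [pow_succ', ← rho_mul, ih, map_add, map_nsmul, h, succ_nsmul', he]
      abel
  have h1 := key (orderOf x)
  rw [pow_orderOf_eq_one, rho_one, left_eq_add] at h1
  have h2 : (Nat.gcd (orderOf x) p) • e = 0 := by
    rw [gcd_nsmul_eq_zero]
    exact ⟨h1, hA e⟩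
  rw [hx, one_nsmul] at h2
  exact sub_eq_zero.1 h2

/-- An element of `p`-power order acting on a nontrivial group of exponent `p` fixes something. -/
theorem exists_fixed (hA : ∀ a : A, p • a = 0) [Finite A] [Nontrivial A] {S : Subgroup G}
    (hS : IsPGroup p S) : ∃ a : A, a ≠ 0 ∧ ∀ s ∈ S, ρ s a = a := by
  letI : MulAction ↥S A :=
    { smul := fun s a => ρ s a
      one_smul := fun a => rho_one ρ a
      mul_smul := fun s t a => (rho_mul ρ s t a).symm }
  obtain ⟨a, ha⟩ := exists_ne (0 : A)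
  have hdvd : p ∣ Nat.card A := by
    have : addOrderOf a = p := addOrderOf_eq_prime (hA a) ha
    exact this ▸ addOrderOf_dvd_natCard a
  obtain ⟨b, hb, hb1⟩ := hS.exists_fixed_point_of_prime_dvd_card_of_fixed_point A hdvd (a := 0)
    fun s => map_zero (ρ s)
  exact ⟨b, fun e => hb1 e.symm, fun s hs => hb ⟨s, hs⟩⟩

/-- The setting: an irreducible module, a subgroup `X` with one noncentral layer inverted by `z`. -/
structure Layer (ρ : G →* AddMonoid.End A) (p : ℕ) (S X J : Subgroup G) (z : G) (A₁ Y Y₀ : AddSubgroup A) : Prop where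
  hS : IsPGroup p S
  hJX : J ≤ X
  hJ : ¬ p ∣ J.relIndex X
  hJS : J ≤ S
  hSJ : ∀ s ∈ S, ∀ g ∈ J, s⁻¹ * g * s ∈ J
  gen : X ⊔ S = ⊤
  hz2 : ∀ a, ρ z (ρ z a) = a
  hzc : ∀ x ∈ X, ∀ a, ρ z (ρ x a) = ρ x (ρ z a)
  hA₁ : ∀ x ∈ X, ∀ a, ρ x a - a ∈ A₁
  hY : ∀ x ∈ X, (orderOf x).Coprime p → ∀ a ∈ A₁, ρ x a - a ∈ Y
  hY₀ : ∀ x ∈ X, (orderOf x).Coprime p → ∀ a ∈ Y₀, ρ x a = a
  neg : ∀ a ∈ Y, ρ z a + a ∈ Y₀
  quad : ∀ g ∈ J, ∀ a ∈ Y, ρ g (ρ g a - a) - (ρ g a - a) ∈ Y₀
  irr : ∀ H : AddSubgroup A, (∀ g, ∀ a ∈ H, ρ g a ∈ H) → H = ⊥ ∨ H = ⊤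

variable {ρ} {S X J : Subgroup G} {z : G} {A₁ Y Y₀ : AddSubgroup A}

theorem Layer.quadratic [Finite G] [Finite A] (h : Layer ρ p S X J z A₁ Y Y₀) (hzX : z ∈ X)
    (hz : (orderOf z).Coprime p) (hp2 : p ≠ 2) (hA : ∀ a : A, p • a = 0) :
    ∀ g ∈ J, ∀ a, ρ g (ρ g a - a) = ρ g a - a := by
  let N : AddSubgroup A := (ρ z - 1 : AddMonoid.End A).range
  have hNmem : ∀ a, ρ z a - a ∈ N := fun a => ⟨a, rfl⟩
  have hNY : ∀ n ∈ N, ρ z n = -n ∧ n ∈ Y := by
    rintro _ ⟨a, rfl⟩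
    show ρ z (ρ z a - a) = -(ρ z a - a) ∧ ρ z a - a ∈ Y
    have e : ρ z (ρ z a - a) = -(ρ z a - a) := by rw [map_sub, h.hz2, neg_sub]
    refine ⟨e, half_mem hp2 hA ?_⟩
    have h1 := Y.neg_mem (h.hY z hzX hz _ (h.hA₁ z hzX a))
    rwa [e, neg_sub, sub_neg_eq_add] at h1
  have hquadN : ∀ g ∈ J, ∀ n ∈ N, ρ g (ρ g n - n) = ρ g n - n := by
    intro g hg n hn
    obtain ⟨hneg, hnY⟩ := hNY n hn
    have hm := h.quad g hg n hnY
    set m := ρ g (ρ g n - n) - (ρ g n - n) with hm'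
    have h1 : ρ z m = m := h.hY₀ z hzX hz m hm
    have h2 : ρ z m = -m := by
      have hgX := h.hJX hg
      simp only [hm', map_sub, h.hzc g hgX, hneg, map_neg]
      abel
    exact sub_eq_zero.1 (show m = 0 from eq_zero_of_add_self hp2 hA (by nth_rewrite 1 [← h1]; rw [h2, neg_add_cancel]))
  have hcop : ∀ x ∈ X, (orderOf x).Coprime p → ∀ a, ρ x a - a ∈ N := by
    intro x hxX hx a
    obtain ⟨b, hb⟩ := exists_half hp2 hA a
    set c := ρ z b + b
    have hc : ρ z c = c := by rw [map_add, h.hz2, add_comm]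
    have hfix : ∀ d, ρ z d = d → ρ z (ρ x d - d) = ρ x d - d := fun d hd => by
      rw [map_sub, h.hzc x hxX, hd]
    have hY0 : ∀ d, ρ z d = d → d ∈ A₁ → ρ x (ρ x d - d) = ρ x d - d := fun d hd hd1 => by
      refine h.hY₀ x hxX hx _ (half_mem hp2 hA ?_)
      have := h.neg _ (h.hY x hxX hx d hd1)
      rwa [hfix d hd] at this
    have hxc : ρ x c = c :=
      fixed_of_twice ρ hA hx (fixed_of_twice ρ hA hx (hY0 _ (hfix c hc) (h.hA₁ x hxX c)))
    have hrel : ρ x a - a = -(ρ z (ρ x b - b) - (ρ x b - b)) := by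
      have ea : a = c - (ρ z b - b) := by rw [← hb]; simp only [c]; abel
      rw [ea, map_sub, hxc, map_sub, map_sub, h.hzc x hxX]
      abel
    rw [hrel]
    exact N.neg_mem (hNmem _)
  let Sg : AddSubgroup A := ⨆ s : S, N.map (ρ (s : G))
  have hNSg : N ≤ Sg := fun n hn =>
    AddSubgroup.mem_iSup_of_mem (1 : S) ⟨n, hn, rho_one ρ n⟩
  have key : ∀ H : AddSubgroup A, (∀ s ∈ S, ∀ a ∈ H, ρ s a ∈ H) →
      (∀ x ∈ X, (orderOf x).Coprime p → ∀ a ∈ H, ρ x a ∈ H) → H = ⊥ ∨ H = ⊤ := by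
    intro H hS hX
    let K : Submonoid G :=
      { carrier := {g | ∀ a ∈ H, ρ g a ∈ H}
        one_mem' := fun a ha => by rwa [rho_one]
        mul_mem' := fun {g k} hg hk a ha => by rw [← rho_mul]; exact hg _ (hk a ha) }
    let K' : Subgroup G :=
      { K with
        inv_mem' := fun {g} hg => by
          have : g⁻¹ ∈ Submonoid.powers g := mem_powers_iff_mem_zpowers.2 (Subgroup.inv_mem _ (Subgroup.mem_zpowers g))
          exact (Submonoid.powers_le.2 hg : Submonoid.powers g ≤ K) this }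
    have hSK : S ≤ K' := hS
    have hXK : X ≤ K' := le_of_sylow_of_coprime h.hJX h.hJ (h.hJS.trans hSK) hX
    exact h.irr H fun g => (h.gen ▸ sup_le hXK hSK) (Subgroup.mem_top g)
  rcases key Sg (fun s hs a ha => by
      refine AddSubgroup.iSup_induction (fun t : S => N.map (ρ (t : G))) (C := fun a => ρ s a ∈ Sg) ha
        ?_ (by rw [map_zero]; exact zero_mem _) (fun a b ha hb => by rw [map_add]; exact add_mem ha hb)
      rintro t _ ⟨n, hn, rfl⟩
      exact AddSubgroup.mem_iSup_of_mem (⟨s, hs⟩ * t : S) ⟨n, hn, (rho_mul ρ _ _ n).symm⟩)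
    (fun x hxX hx a ha => by
      have := add_mem (hNSg (hcop x hxX hx a)) ha
      rwa [sub_add_cancel] at this) with hbot | htop
  · -- everything is centralised
    intro g hg a
    rcases subsingleton_or_nontrivial A with _ | _
    · exact Subsingleton.elim _ _
    obtain ⟨f, hf0, hf⟩ := exists_fixed ρ hA h.hS
    let Fx : AddSubgroup A :=
      { carrier := {a | ∀ s ∈ S, ρ s a = a}
        zero_mem' := fun s _ => map_zero _
        add_mem' := fun {a b} ha hb s hs => by rw [map_add, ha s hs, hb s hs]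
        neg_mem' := fun {a} ha s hs => by rw [map_neg, ha s hs] }
    have htriv : ∀ x ∈ X, (orderOf x).Coprime p → ∀ a, ρ x a = a := fun x hxX hx a => by
      have := hNSg (hcop x hxX hx a)
      rw [hbot, AddSubgroup.mem_bot, sub_eq_zero] at this
      exact this
    rcases key Fx (fun s hs a ha => by rw [ha s hs]; exact ha) (fun x hxX hx a ha => by
      rw [htriv x hxX hx]; exact ha) with hb | ht
    · exact absurd (AddSubgroup.mem_bot.1 (hb ▸ (hf : f ∈ Fx))) hf0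
    · have hga : ρ g a = a := ((ht ▸ AddSubgroup.mem_top a : a ∈ Fx)) g (h.hJS hg)
      rw [hga, sub_self, map_zero]
  · intro g hg a
    have ha : a ∈ Sg := htop ▸ AddSubgroup.mem_top a
    refine AddSubgroup.iSup_induction (fun t : S => N.map (ρ (t : G)))
      (C := fun a => ρ g (ρ g a - a) = ρ g a - a) ha ?_ (by simp) (fun a b ha hb => by
        simp only [map_add] at *
        rw [show ρ g a + ρ g b - (a + b) = (ρ g a - a) + (ρ g b - b) by abel, map_add, ha, hb])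
    rintro t _ ⟨n, hn, rfl⟩
    have hc : ∀ m, ρ g (ρ (t : G) m) = ρ (t : G) (ρ ((t : G)⁻¹ * g * t) m) := fun m => by
      rw [rho_mul, rho_mul]; congr 2; group
    have e := hquadN _ (h.hSJ t t.2 g hg) n hn
    show ρ g (ρ g (ρ (t : G) n) - ρ (t : G) n) = ρ g (ρ (t : G) n) - ρ (t : G) n
    rw [hc, ← map_sub, hc, e]

end Cfsg.Agent.H73.Focal
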