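import Cfsg.Prelude.Def_PLocal
import Cfsg.Prelude.Def_Solvable
import Cfsg.Agent.H19.Cores
import Mathlib

/-! General lemmas for the odd focal subgroup theorem. -/

set_option autoImplicit false

namespace Cfsg.Agent.H73.Focal

open Subgroup
open scoped commutatorElement

variable {G : Type*} [Group G] {p : ℕ}

/-- `u` acts quadratically on `U` modulo `W`. -/
def QuadMod (u : G) (U W : Subgroup G) : Prop := ∀ x ∈ U, ⁅⁅x, u⁆, u⁆ ∈ W

/-- The same needing only that the commutator normalises the lower layer. -/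
theorem comm_mem_of_twice' [Finite G] [Fact p.Prime] {U W : Subgroup G} (hU : IsPGroup p U) {x u : G}
    (hx : (orderOf x).Coprime p) (hc : ⁅x, u⁆ ∈ U)
    (hcW : ⁅x, u⁆ ∈ normalizer (W : Set G)) (h2 : ⁅x, ⁅x, u⁆⁆ ∈ W) (hxW : x ∈ normalizer (W : Set G)) :
    ⁅x, u⁆ ∈ W := by
  set c := ⁅x, u⁆ with hcdef
  have hxc : x * c * x⁻¹ = ⁅x, c⁆ * c := by rw [commutatorElement_def x c]; group
  have key : ∀ k : ℕ, ∃ w ∈ W, x ^ k * u * (x ^ k)⁻¹ = w * c ^ k * u := by
    intro k
    induction k with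
    | zero => exact ⟨1, one_mem _, by simp⟩
    | succ k ih =>
      obtain ⟨w, hw, e⟩ := ih
      have hpow : ∀ m : ℕ, ∃ w' ∈ W, x * c ^ m * x⁻¹ = w' * c ^ m := by
        intro m
        induction m with
        | zero => exact ⟨1, one_mem _, by simp⟩
        | succ m ihm =>
          obtain ⟨w', hw', e'⟩ := ihm
          refine ⟨w' * (c ^ m * ⁅x, c⁆ * (c ^ m)⁻¹), mul_mem hw'
            ((mem_normalizer_iff.1 (pow_mem hcW m) _).1 h2), ?_⟩
          rw [pow_succ, show x * (c ^ m * c) * x⁻¹ = (x * c ^ m * x⁻¹) * (x * c * x⁻¹) by group, e', hxc]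
          group
      obtain ⟨w', hw', e'⟩ := hpow k
      refine ⟨x * w * x⁻¹ * w', mul_mem ((mem_normalizer_iff.1 hxW _).1 hw) hw', ?_⟩
      calc x ^ (k + 1) * u * (x ^ (k + 1))⁻¹ = x * (x ^ k * u * (x ^ k)⁻¹) * x⁻¹ := by
            rw [pow_succ']; group
        _ = (x * w * x⁻¹) * (x * c ^ k * x⁻¹) * (x * u * x⁻¹) := by rw [e]; group
        _ = (x * w * x⁻¹) * (w' * c ^ k) * (c * u) := by
            rw [e', hcdef, commutatorElement_def]; group
        _ = _ := by rw [pow_succ]; group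
  obtain ⟨w, hw, e⟩ := key (orderOf x)
  rw [pow_orderOf_eq_one, one_mul, inv_one, mul_one] at e
  have h1 : c ^ orderOf x ∈ W := by
    have : c ^ orderOf x = w⁻¹ := by
      have e2 : w * c ^ orderOf x = 1 := by
        calc w * c ^ orderOf x = (w * c ^ orderOf x * u) * u⁻¹ := by group
          _ = 1 := by rw [← e]; group
      exact eq_inv_of_mul_eq_one_right e2
    rw [this]; exact inv_mem hw
  obtain ⟨k, hk⟩ := hU ⟨c, hc⟩
  have hk' : c ^ p ^ k = 1 := by simpa using congrArg Subtype.val hk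
  have hcop : (orderOf x).Coprime (orderOf c) :=
    (hx.pow_right k).coprime_dvd_right (orderOf_dvd_of_pow_eq_one hk')
  obtain ⟨m, hm⟩ := exists_pow_eq_self_of_coprime hcop
  rw [← hm]
  exact pow_mem h1 m

/-- A `p'`-element trivial on two consecutive layers of a `p`-group is trivial on both. -/
theorem comm_mem_of_twice [Finite G] [Fact p.Prime] {U W : Subgroup G} (hU : IsPGroup p U) {x u : G}
    (hx : (orderOf x).Coprime p) (_hu : u ∈ U) (hc : ⁅x, u⁆ ∈ U) (_hW : W ≤ U)
    (hn : U ≤ normalizer (W : Set G)) (h2 : ⁅x, ⁅x, u⁆⁆ ∈ W) (hxW : x ∈ normalizer (W : Set G)) :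
    ⁅x, u⁆ ∈ W := comm_mem_of_twice' hU hx hc (hn hc) h2 hxW

/-- Quadratic elements in commutator form. -/
theorem iterCommutator_two_le {U W : Subgroup G} [Finite G] [W.Normal] [U.Normal] {u : G}
    (h : QuadMod u U W) : Cfsg.iterCommutator U (zpowers u) 2 ≤ W := by
  let π := QuotientGroup.mk' W
  have hfix : ∀ x ∈ U, π u * π ⁅x, u⁆ = π ⁅x, u⁆ * π u := by
    intro x hx
    have e : π ⁅⁅x, u⁆, u⁆ = 1 := (QuotientGroup.eq_one_iff _).2 (h x hx)
    rw [map_commutatorElement] at e
    exact (commutatorElement_eq_one_iff_mul_comm.1 e).symm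
  let D : Subgroup G := (centralizer ({π u} : Set (G ⧸ W))).comap π
  have huD : u ∈ D := mem_comap.2 (mem_centralizer_singleton_iff.2 rfl)
  have hD : ∀ x ∈ U, ⁅x, u⁆ ∈ D := fun x hx =>
    mem_comap.2 (mem_centralizer_singleton_iff.2 (hfix x hx).symm)
  have hpow : ∀ (k : ℕ), ∀ x ∈ U, ⁅x, u ^ k⁆ ∈ D := by
    intro k
    induction k with
    | zero => intro x _; simp
    | succ k ih =>
      intro x hx
      have : ⁅x, u ^ (k + 1)⁆ = ⁅x, u ^ k⁆ * (u ^ k * ⁅x, u⁆ * (u ^ k)⁻¹) := by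
        simp only [commutatorElement_def, pow_succ]; group
      rw [this]
      exact mul_mem (ih x hx) (mul_mem (mul_mem (pow_mem huD k) (hD x hx)) (inv_mem (pow_mem huD k)))
  have h1 : Cfsg.iterCommutator U (zpowers u) 1 ≤ D := by
    refine commutator_le.2 fun x hx g hg => ?_
    obtain ⟨k, rfl⟩ := (mem_powers_iff_mem_zpowers.2 hg : g ∈ Submonoid.powers u)
    exact hpow k x hx
  refine commutator_le.2 fun x hx g hg => ?_
  have hx' : π u ∈ centralizer ({π x} : Set (G ⧸ W)) :=
    mem_centralizer_singleton_iff.2 (mem_centralizer_singleton_iff.1 (mem_comap.1 (h1 hx))).symm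
  obtain ⟨k, rfl⟩ := mem_zpowers_iff.1 hg
  have hz := zpow_mem hx' k
  rw [← map_zpow] at hz
  refine (QuotientGroup.eq_one_iff _).1 ?_
  change π ⁅x, u ^ k⁆ = 1
  rw [map_commutatorElement]
  exact commutatorElement_eq_one_iff_mul_comm.2 (mem_centralizer_singleton_iff.1 hz).symm

/-- Later terms of a chain inside a normal subgroup stay there. -/
theorem iterCommutator_le_of_le {U W : Subgroup G} [W.Normal] {X : Subgroup G} {i j : ℕ} (hij : i ≤ j)
    (h : Cfsg.iterCommutator U X i ≤ W) : Cfsg.iterCommutator U X j ≤ W := by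
  induction hij with
  | refl => exact h
  | step _ ih => exact (commutator_mono ih le_rfl).trans (commutator_le_left W X)

/-- A subgroup containing a Sylow `p`-subgroup and all `p'`-elements of `X` contains `X`. -/
theorem le_of_sylow_of_coprime [Finite G] [hp : Fact p.Prime] {X H J : Subgroup G} (hJX : J ≤ X)
    (hJ : ¬ p ∣ J.relIndex X) (hJH : J ≤ H) (hx : ∀ x ∈ X, (orderOf x).Coprime p → x ∈ H) : X ≤ H := by
  have hidx : (H.subgroupOf X).index = 1 := by
    by_contra hne
    obtain ⟨q, hq, hdvd⟩ := Nat.exists_prime_and_dvd hne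
    haveI : Fact q.Prime := ⟨hq⟩
    by_cases hqp : q = p
    · subst hqp
      exact hJ (hdvd.trans (Subgroup.index_dvd_of_le (fun x hx' => hJH hx')))
    · obtain ⟨P⟩ : Nonempty (Sylow q ↥X) := inferInstance
      have hPH : (P : Subgroup ↥X) ≤ H.subgroupOf X := by
        intro y hy
        refine hx y y.2 ?_
        obtain ⟨k, hk⟩ := P.2 ⟨y, hy⟩
        have hk' : (y : G) ^ q ^ k = 1 :=
          congrArg (fun z : ↥X => (z : G)) (congrArg Subtype.val hk)
        exact Nat.Coprime.coprime_dvd_left (orderOf_dvd_of_pow_eq_one hk')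
          (((Nat.coprime_primes hq hp.out).2 hqp).pow_left k)
      exact P.not_dvd_index (hdvd.trans (Subgroup.index_dvd_of_le hPH))
  exact subgroupOf_eq_top.1 (Subgroup.index_eq_one.1 hidx)

/-- Centralisers of `O_p`: `p'`-elements centralising a `p`-subgroup normal in a group with `C(O_p) ≤ O_p`. -/
theorem eq_one_of_coprime_of_pgroup [Finite G] [Fact p.Prime] {Q : Subgroup G} (hQ : IsPGroup p Q) {x : G}
    (hx : (orderOf x).Coprime p) (hxQ : x ∈ Q) : x = 1 := by
  obtain ⟨k, hk⟩ := hQ ⟨x, hxQ⟩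
  have hk' : x ^ p ^ k = 1 := by simpa using congrArg Subtype.val hk
  exact orderOf_eq_one_iff.1 (Nat.eq_one_of_dvd_coprimes (hx.pow_right k) dvd_rfl (orderOf_dvd_of_pow_eq_one hk'))

/-- A finite group all of whose `p'`-elements are trivial is a `p`-group. -/
theorem isPGroup_of_coprime_trivial [Finite G] [hp : Fact p.Prime] {H : Subgroup G}
    (h : ∀ x ∈ H, (orderOf x).Coprime p → x = 1) : IsPGroup p H := by
  intro ⟨x, hx⟩
  set a := (orderOf x).factorization p
  refine ⟨a, Subtype.ext ?_⟩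
  simp only [SubmonoidClass.coe_pow, OneMemClass.coe_one]
  refine h _ (pow_mem hx _) ?_
  have hn : orderOf x ≠ 0 := (orderOf_pos x).ne'
  rw [orderOf_pow' x (pow_ne_zero _ hp.out.ne_zero), Nat.gcd_eq_right (Nat.ordProj_dvd _ _)]
  exact ((Nat.coprime_ordCompl hp.out hn)).symm

end Cfsg.Agent.H73.Focal
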