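import Cfsg.Agent.H1.SylowTwoDim
import Mathlib

/-! Maximal `p`-subgroups of subgroups. -/

set_option autoImplicit false

namespace Cfsg.Agent.H73.Focal

open Subgroup
open scoped Pointwise

variable {G : Type*} [Group G] {p : ℕ}

/-- `P` is a maximal `p`-subgroup of `H`. -/
structure SylIn (p : ℕ) (P H : Subgroup G) : Prop where
  le : P ≤ H
  isP : IsPGroup p P
  max : ∀ R ≤ H, IsPGroup p R → P ≤ R → R = P

variable [Finite G] [hp : Fact p.Prime] {P H : Subgroup G}

theorem SylIn.exists_sylow (h : SylIn p P H) : ∃ T : Sylow p ↥H, (T : Subgroup ↥H).map H.subtype = P ∧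
    (T : Subgroup ↥H) = P.subgroupOf H := by
  refine ⟨{ toSubgroup := P.subgroupOf H
            isPGroup' := h.isP.of_equiv (subgroupOfEquivOfLe h.le).symm
            is_maximal' := fun {R} hR hPR => ?_ }, map_subgroupOf_eq_of_le h.le, rfl⟩
  have e := h.max (R.map H.subtype) (map_subtype_le R) (hR.map _)
    ((map_subgroupOf_eq_of_le h.le).ge.trans (map_mono hPR))
  refine le_antisymm (fun r hr => ?_) hPR
  rw [mem_subgroupOf, ← e]
  exact mem_map_of_mem H.subtype hr

theorem SylIn.not_dvd (h : SylIn p P H) : ¬ p ∣ P.relIndex H := by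
  obtain ⟨T, -, e⟩ := h.exists_sylow
  rw [Subgroup.relIndex, ← e]
  exact T.not_dvd_index

theorem sylIn_of_not_dvd (hle : P ≤ H) (hP : IsPGroup p P) (h : ¬ p ∣ P.relIndex H) : SylIn p P H := by
  refine ⟨hle, hP, fun R hRH hR hPR => le_antisymm ?_ hPR⟩
  obtain ⟨k, hk⟩ := IsPGroup.iff_card.1 hR
  obtain ⟨j, -, hj⟩ := (Nat.dvd_prime_pow hp.out).1 (hk ▸ Subgroup.index_dvd_card _ : P.relIndex R ∣ p ^ k)
  rcases j with _ | j
  · exact relIndex_eq_one.1 (by simpa using hj)
  · refine absurd ?_ h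
    rw [← relIndex_mul_relIndex P R H hPR hRH, hj]
    exact (dvd_pow_self p (Nat.succ_ne_zero j)).mul_right _

omit hp in
theorem SylIn.of_le (h : SylIn p P H) {K : Subgroup G} (hPK : P ≤ K) (hKH : K ≤ H) : SylIn p P K :=
  ⟨hPK, h.isP, fun R hR => h.max R (hR.trans hKH)⟩

/-- A Sylow subgroup meets a normal subgroup in a maximal `p`-subgroup of it. -/
theorem sylIn_inf (S : Sylow p G) (D : Subgroup G) [D.Normal] : SylIn p ((S : Subgroup G) ⊓ D) D := by
  refine ⟨inf_le_right, S.2.to_le inf_le_left, fun R hRD hR hle => (eq_of_le_of_card_ge hle ?_).symm⟩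
  obtain ⟨Q, hQ⟩ := hR.exists_le_sylow
  obtain ⟨g, hg⟩ := MulAction.exists_smul_eq G Q S
  have h2 : R.map (MulAut.conj g).toMonoidHom ≤ (S : Subgroup G) ⊓ D := by
    rintro _ ⟨x, hx, rfl⟩
    refine ⟨?_, ‹D.Normal›.conj_mem x (hRD hx) g⟩
    rw [← hg]
    exact (H1.mem_smul_sylow p g _).2 (by simpa [mul_assoc] using hQ hx)
  have h3 := card_le_of_le h2
  rwa [card_map_of_injective (MulAut.conj g).injective] at h3

/-- The same inside a subgroup. -/
theorem SylIn.inf (h : SylIn p P H) {D : Subgroup G} (hDH : D ≤ H) (hn : H ≤ normalizer (D : Set G)) :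
    SylIn p (P ⊓ D) D := by
  obtain ⟨T, hT, -⟩ := h.exists_sylow
  haveI : (D.subgroupOf H).Normal := (normal_subgroupOf_iff_le_normalizer hDH).2 hn
  have h' := sylIn_inf T (D.subgroupOf H)
  refine ⟨inf_le_right, h.isP.to_le inf_le_left, fun R hRD hR hle => ?_⟩
  have hRH := hRD.trans hDH
  have e := h'.max (R.subgroupOf H) (fun x hx => hRD hx) (hR.of_equiv (subgroupOfEquivOfLe hRH).symm)
    (by
      rintro x ⟨hx1, hx2⟩
      refine hle ⟨?_, hx2⟩
      rw [← hT]
      exact mem_map_of_mem H.subtype hx1)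
  have e2 := congrArg (Subgroup.map H.subtype) e
  rwa [map_subgroupOf_eq_of_le hRH, Subgroup.map_inf _ _ _ H.subtype_injective, hT,
    map_subgroupOf_eq_of_le hDH] at e2

/-- Frattini: a subgroup normalising `H` lies in `H` times the normaliser of `P`. -/
theorem SylIn.frattini' (h : SylIn p P H) {g : G} (hg : g ∈ normalizer (H : Set G)) :
    ∃ x ∈ H, x * g ∈ normalizer (P : Set G) := by
  obtain ⟨T, hT, -⟩ := h.exists_sylow
  have hPg : P.map (MulAut.conj g).toMonoidHom ≤ H := by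
    rintro _ ⟨x, hx, rfl⟩
    exact (mem_normalizer_iff.1 hg x).1 (h.le hx)
  obtain ⟨Q, hQ⟩ :=
    ((h.isP.map (MulAut.conj g).toMonoidHom).of_equiv (subgroupOfEquivOfLe hPg).symm).exists_le_sylow
  obtain ⟨x, hx⟩ := MulAction.exists_smul_eq ↥H Q T
  have hle : P.map (MulAut.conj ((x : G) * g)).toMonoidHom ≤ P := by
    rintro _ ⟨y, hy, rfl⟩
    have hm : (⟨g * y * g⁻¹, hPg ⟨y, hy, rfl⟩⟩ : ↥H) ∈ (Q : Subgroup ↥H) := hQ ⟨y, hy, rfl⟩
    have : x * ⟨g * y * g⁻¹, hPg ⟨y, hy, rfl⟩⟩ * x⁻¹ ∈ (T : Subgroup ↥H) := by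
      rw [← hx]
      exact (H1.mem_smul_sylow p x _).2 (by simpa [mul_assoc] using hm)
    have := mem_map_of_mem H.subtype this
    rw [hT] at this
    simpa [mul_assoc] using this
  have hN : (x : G) * g ∈ normalizer (P : Set G) := mem_normalizer_iff_map_conj_eq.2
    (eq_of_le_of_card_ge hle (card_map_of_injective (MulAut.conj ((x : G) * g)).injective).ge)
  exact ⟨x, x.2, hN⟩

theorem SylIn.frattini (h : SylIn p P H) {g : G} (hg : g ∈ normalizer (H : Set G)) :
    g ∈ H ⊔ normalizer (P : Set G) := by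
  obtain ⟨x, hx, hN⟩ := h.frattini' hg
  have := mul_mem (mem_sup_left (inv_mem hx) : x⁻¹ ∈ H ⊔ normalizer (P : Set G)) (mem_sup_right hN)
  rwa [inv_mul_cancel_left] at this

end Cfsg.Agent.H73.Focal
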