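import Cfsg.Agent.H73.Focal.Coord
import Cfsg.Agent.H73.Focal.Sylow
import Mathlib

/-! The homomorphism of the product of the components on one coordinate. -/

set_option autoImplicit false
set_option linter.unusedSectionVars false

namespace Cfsg.Agent.H73.Focal.Coord

open Subgroup
open scoped commutatorElement Matrix

universe u

variable {G : Type u} [Group G] [Finite G] {p : ℕ} {S V : Subgroup G} {F : Type} [Field F] [Fintype F]
  {r : ℕ} [hp : Fact p.Prime] [CharP F p] (c : Coord p S V F r)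
include c

local notation "SL2" => Matrix.SpecialLinearGroup (Fin 2) F

/-- The action on coordinate `i`. -/
noncomputable def chi (i : Fin r) : ↥c.Lall →* SL2 where
  toFun g := Classical.choose (c.exists_acts g.2 i)
  map_one' := Subtype.ext (c.acts_unique (Classical.choose_spec (c.exists_acts (one_mem _) i))
    (by simpa using c.acts_one i))
  map_mul' g h := Subtype.ext (c.acts_unique (Classical.choose_spec (c.exists_acts (g * h).2 i))
    (by
      rw [Matrix.SpecialLinearGroup.coe_mul]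
      exact c.acts_mul (Classical.choose_spec (c.exists_acts g.2 i)) (Classical.choose_spec (c.exists_acts h.2 i))))

theorem chi_spec (i : Fin r) (g : ↥c.Lall) : c.Acts i g (c.chi i g : SL2) :=
  Classical.choose_spec (c.exists_acts g.2 i)

theorem chi_eq {i : Fin r} {g : G} (hg : g ∈ c.Lall) {M : SL2} (h : c.Acts i g M) :
    c.chi i ⟨g, hg⟩ = M :=
  Subtype.ext (c.acts_unique (c.chi_spec i ⟨g, hg⟩) h)

theorem chi_cross {i j : Fin r} (hji : j ≠ i) {g : G} (hg : g ∈ c.L j) :
    c.chi i ⟨g, c.L_le j hg⟩ = 1 :=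
  c.chi_eq _ (by simpa using c.acts_cross hji hg)

theorem chi_C (i : Fin r) {g : G} (hg : g ∈ centralizer (V : Set G)) :
    c.chi i ⟨g, c.C_le_Lall hg⟩ = 1 :=
  c.chi_eq _ (by simpa using c.acts_C i hg)

theorem mem_C_of_chi {g : ↥c.Lall} (h : ∀ i, c.chi i g = 1) : (g : G) ∈ centralizer (V : Set G) :=
  c.mem_C_of fun i => by
    have := c.chi_spec i g
    rwa [h i, Matrix.SpecialLinearGroup.coe_one] at this

theorem chi_surjective (i : Fin r) : Function.Surjective (c.chi i) := fun M => by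
  obtain ⟨g, hg, h⟩ := c.act_surj i M
  exact ⟨⟨g, c.L_le i hg⟩, c.chi_eq _ h⟩

/-- The components are normal in the product. -/
theorem Lall_le_normalizer_L (i : Fin r) : c.Lall ≤ normalizer ((c.L i : Subgroup G) : Set G) := by
  intro g hg
  refine H34.Para.mem_normalizer_of_cj_eq (eq_of_le_of_card_ge ?_ (H34.MinOffender.card_cj _ _).ge)
  rintro _ ⟨x, hx, rfl⟩
  show g * x * g⁻¹ ∈ c.L i
  obtain ⟨x', hx', hx'M⟩ := c.act_surj i (c.chi i (⟨g, hg⟩ * ⟨x, c.L_le i hx⟩ * ⟨g, hg⟩⁻¹))
  have hd : (((⟨x', c.L_le i hx'⟩ : ↥c.Lall))⁻¹ * (⟨g, hg⟩ * ⟨x, c.L_le i hx⟩ * ⟨g, hg⟩⁻¹) : ↥c.Lall).1 ∈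
      centralizer (V : Set G) := by
    refine c.mem_C_of_chi fun j => ?_
    by_cases hj : j = i
    · subst hj
      rw [map_mul, map_inv, c.chi_eq _ hx'M, inv_mul_cancel]
    · rw [map_mul, map_inv, c.chi_cross (Ne.symm hj) hx', map_mul, map_mul, c.chi_cross (Ne.symm hj) hx,
        map_inv]
      group
  have h2 := mul_mem hx' (c.C_le i hd)
  simpa [mul_assoc] using h2

/-- The image of a maximal `p`-subgroup of a subgroup mapping onto everything is a Sylow subgroup. -/
theorem exists_sylow_image (i : Fin r) {P H : Subgroup G} (hP : SylIn p P H) (hH : H ≤ c.Lall)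
    (hsurj : ∀ M : SL2, ∃ g, ∃ hg : g ∈ H, c.chi i ⟨g, hH hg⟩ = M) :
    ∃ U : Sylow p SL2, (U : Subgroup SL2) = (P.subgroupOf c.Lall).map (c.chi i) := by
  obtain ⟨T, hT, -⟩ := hP.exists_sylow
  let f : ↥H →* SL2 := (c.chi i).comp (Subgroup.inclusion hH)
  have hf : Function.Surjective f := fun M => by
    obtain ⟨g, hg, e⟩ := hsurj M
    exact ⟨⟨g, hg⟩, e⟩
  refine ⟨T.mapSurjective hf, ?_⟩
  rw [Sylow.coe_mapSurjective]
  ext M
  constructor
  · rintro ⟨x, hx, rfl⟩
    refine ⟨Subgroup.inclusion hH x, ?_, rfl⟩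
    show (x : G) ∈ P
    rw [← hT]
    exact mem_map_of_mem H.subtype hx
  · rintro ⟨y, hy, rfl⟩
    have hy' : (y : G) ∈ (T : Subgroup ↥H).map H.subtype := hT.symm ▸ hy
    obtain ⟨x, hx, e⟩ := hy'
    exact ⟨x, hx, congrArg (c.chi i) (Subtype.ext e : Subgroup.inclusion hH x = y)⟩

end Cfsg.Agent.H73.Focal.Coord
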