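import Cfsg.Agent.H34.Para.Orbit
import Mathlib

/-!
Coordinates on the components of a minimal parabolic with a large minimal offender, with the Sylow
subgroup permuting the components (variant of `H34.Para.exists_components_large`).
-/

set_option autoImplicit false
set_option linter.style.haveILetI false
set_option maxHeartbeats 1000000

namespace Cfsg.Agent.H73.Focal

open Subgroup
open Cfsg.Agent.H34.MinOffender hiding cj_mul cj_one
open Cfsg.Agent.H34.Para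
open scoped commutatorElement Matrix

universe u

variable {G : Type u} [Group G] [Finite G] {p : ℕ} [Fact p.Prime] {V P T M : Subgroup G}

/-- The structure for a minimal offender of order at least three. -/
theorem exists_coordinates (h : FFP p V P T M) {A₀ : Subgroup G} (hA₀P : A₀ ≤ P)
    (hA₀ : MinOff p V A₀) (hq : 3 ≤ Nat.card ↥A₀) :
    ∃ (r : ℕ) (F : Type) (_ : Field F) (_ : Fintype F) (E : Fin r → Subgroup G) (π : Fin r → G → (Fin 2 → F)),
      1 ≤ r ∧ (∃ n : ℕ, 1 ≤ n ∧ Fintype.card F = p ^ n) ∧ (∀ i, E i ≤ P) ∧ (⨆ i, E i) ⊔ T = P ∧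
      (∀ t ∈ T, ∀ i, ∃ j, cj t (E i) = E j) ∧
      (∀ i, ∀ v ∈ V, ∀ u ∈ V, π i (v * u) = π i v + π i u) ∧
      (∀ i, ∀ v ∈ V, π i v = 0 ↔ v ∈ centralizer ((E i : Subgroup G) : Set G)) ∧
      (∀ i, ∀ g ∈ E i, ∃ X : Matrix.SpecialLinearGroup (Fin 2) F,
        ∀ v ∈ V, π i (g * v * g⁻¹) = (X : Matrix (Fin 2) (Fin 2) F) *ᵥ π i v) ∧
      (∀ i (X : Matrix.SpecialLinearGroup (Fin 2) F), ∃ g ∈ E i,
        ∀ v ∈ V, π i (g * v * g⁻¹) = (X : Matrix (Fin 2) (Fin 2) F) *ᵥ π i v) ∧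
      (∀ i j, j ≠ i → ∀ g ∈ E j, ∀ v ∈ V, π i (g * v * g⁻¹) = π i v) ∧
      (∀ i w, ∃ v ∈ V, π i v = w ∧ ∀ j, j ≠ i → π j v = 0) := by
  classical
  obtain ⟨k, hk, L, R, hLP, -, hkT, hLM, hB, hnormp⟩ := h.exists_good hA₀P hA₀
  obtain ⟨F, iF, iF', C, iC, ⟨c⟩⟩ := exists_chart h (hA₀.cj (h.hPV hk)) hkT hLP hLM hB hnormp
    (by rwa [card_cj])
  set A := cj k A₀
  have hPV := c.hPV
  have hTP := h.hTP
  have hLV : L ≤ normalizer (V : Set G) := hLP.trans hPV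
  -- the orbit
  let S := {X : Subgroup G // ∃ t ∈ T, X = cj t L}
  haveI : Finite S := inferInstance
  haveI : Fintype S := Fintype.ofFinite S
  let eS := (Fintype.equivFin S).symm
  let E : Fin (Fintype.card S) → Subgroup G := fun i => (eS i).1
  have hEex : ∀ i, ∃ t ∈ T, E i = cj t L := fun i => (eS i).2
  choose tt htt hEt using hEex
  have hEne : ∀ i j, i ≠ j → ∀ x ∈ E i, ∀ y ∈ E j, x * y = y * x := by
    intro i j hij x hx y hy
    rw [hEt] at hx hy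
    have hne : cj ((tt j)⁻¹ * tt i) L ≠ L := fun e => hij (eS.injective (Subtype.ext (by
      show E i = E j
      rw [hEt i, hEt j]
      conv_rhs => rw [← e, ← cj_mul, mul_inv_cancel_left])))
    obtain e | ⟨-, -, hc⟩ := c.orbit_pair (T.mul_mem (T.inv_mem (htt j)) (htt i))
    · exact absurd e hne
    have h1 : (tt j)⁻¹ * x * tt j ∈ cj ((tt j)⁻¹ * tt i) L := by
      rw [cj_mul]; simpa using conj_mem_cj (x := (tt j)⁻¹) hx
    have e1 := hc _ h1 _ (mem_cj.1 hy)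
    have e2 := congrArg (fun u => tt j * u * (tt j)⁻¹) e1
    simpa [mul_assoc] using e2
  have hEP : ∀ i, E i ≤ P := fun i => (hEt i).le.trans (cj_le (hTP (htt i)) hLP)
  have hLmem : ∃ i, E i = L := ⟨eS.symm ⟨L, 1, T.one_mem, (cj_one L).symm⟩, by simp [E]⟩
  -- coordinates of each component
  let π : Fin (Fintype.card S) → G → (Fin 2 → F) := fun i v =>
    if hv : v ∈ V then
      ![(c.e (Additive.ofMul ⟨(tt i)⁻¹ * v * tt i, by simpa using c.base.conj_V (P.inv_mem (hTP (htt i))) hv⟩)).1,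
        (c.e (Additive.ofMul ⟨(tt i)⁻¹ * v * tt i, by simpa using c.base.conj_V (P.inv_mem (hTP (htt i))) hv⟩)).2.1]
    else 0
  have hπw : ∀ i v, v ∈ V → ∃ w, vec c.e w = (tt i)⁻¹ * v * tt i ∧ π i v = ![w.1, w.2.1] := fun i v hv =>
    ⟨_, vec_e c.e ⟨(tt i)⁻¹ * v * tt i, by simpa using c.base.conj_V (P.inv_mem (hTP (htt i))) hv⟩, dif_pos hv⟩
  have hπmul : ∀ i, ∀ v ∈ V, ∀ u ∈ V, π i (v * u) = π i v + π i u := by
    intro i v hv u hu
    obtain ⟨w, hw, hw'⟩ := hπw i v hv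
    obtain ⟨w₁, hw₁, hw₁'⟩ := hπw i u hu
    obtain ⟨w₂, hw₂, hw₂'⟩ := hπw i (v * u) (V.mul_mem hv hu)
    have e : w₂ = w + w₁ := vec_inj c.e (by rw [vec_add, hw, hw₁, hw₂]; group)
    rw [hw', hw₁', hw₂', e]
    funext j; fin_cases j <;> rfl
  have hπker : ∀ i, ∀ v ∈ V, π i v = 0 ↔ v ∈ centralizer ((E i : Subgroup G) : Set G) := by
    intro i v hv
    obtain ⟨w, hw, hw'⟩ := hπw i v hv
    have h1 : π i v = 0 ↔ (tt i)⁻¹ * v * tt i ∈ V ⊓ centralizer (L : Set G) := by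
      rw [hw', ← hw, c.mem_C]
      refine ⟨fun e => ⟨congrFun e 0, congrFun e 1⟩, fun e => ?_⟩
      funext j; fin_cases j
      · exact e.1
      · exact e.2
    rw [h1, hEt, ← mem_cj, ← cent_cj (hPV (hTP (htt i))), mem_inf, and_iff_right hv]
  have hπact : ∀ i, ∀ g, g ∈ E i → ∀ (hg : (tt i)⁻¹ * g * tt i ∈ L), ∀ v ∈ V,
      π i (g * v * g⁻¹) =
        ((c.rho ⟨_, hg⟩ : Matrix.SpecialLinearGroup (Fin 2) F) : Matrix (Fin 2) (Fin 2) F) *ᵥ π i v := by
    intro i g hgE hg v hv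
    obtain ⟨w, hw, hw'⟩ := hπw i v hv
    obtain ⟨w₂, hw₂, hw₂'⟩ := hπw i (g * v * g⁻¹) (c.base.conj_V (hEP i hgE) hv)
    have e : w₂ = act c.e ((tt i)⁻¹ * g * tt i) w := vec_inj c.e (by
      rw [hw₂, vec_act c.e (hLV hg), hw]; group)
    rw [hw₂', hw', e]
    exact c.act_rho ⟨_, hg⟩ w
  have hWV : ∀ i, ⁅V, E i⁆ ≤ V := fun i => commutator_le.2 fun v hv g hg => by
    rw [commutatorElement_def, mul_assoc, mul_assoc, ← mul_assoc g]
    exact V.mul_mem hv (c.base.conj_V (hEP i hg) (V.inv_mem hv))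
  have hcross : ∀ i j, i ≠ j → ⁅V, E i⁆ ≤ centralizer ((E j : Subgroup G) : Set G) := by
    intro i j hij
    refine commutator_le.2 fun v hv g hg => ?_
    have h1 := c.disp_fixed (hTP (htt i)) (hTP (htt j))
      (fun x hx y hy => hEne i j hij x ((hEt i).ge hx) y ((hEt j).ge hy)) g ((hEt i).le hg) v hv
    rw [← commutatorElement_inv, hEt j]
    exact inv_mem h1.2
  have hsurj : ∀ i f, ∃ u ∈ ⁅V, E i⁆, π i u = f := by
    intro i f
    have key : ∀ w : F × F × C, ∀ a ∈ L, ∃ u ∈ ⁅V, E i⁆,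
        π i u = ![(act c.e a w - w).1, (act c.e a w - w).2.1] := by
      intro w a ha
      set v := tt i * vec c.e w * (tt i)⁻¹
      have hv : v ∈ V := c.base.conj_V (hTP (htt i)) (vec_mem c.e w)
      set g := tt i * a * (tt i)⁻¹
      have hg : g ∈ E i := (hEt i).ge (conj_mem_cj ha)
      have hu : ⁅g, v⁆ ∈ ⁅V, E i⁆ := by
        rw [← commutatorElement_inv]; exact inv_mem (commutator_mem_commutator hv hg)
      refine ⟨_, hu, ?_⟩
      obtain ⟨w₂, hw₂, hw₂'⟩ := hπw i ⁅g, v⁆ (hWV i hu)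
      have e : w₂ = act c.e a w - w := vec_inj c.e (by
        rw [hw₂, vec_comm c.e (hLV ha)]
        simp only [g, v, commutatorElement_def]
        group)
      rw [hw₂', e]
    obtain ⟨u₁, hu₁, e₁⟩ := key (0, 1, 0) (c.up (f 0)) (c.hAL (c.up_mem _))
    obtain ⟨u₂, hu₂, e₂⟩ := key (1, 0, 0) (c.ww * c.up (-(f 1)) * c.ww⁻¹)
      (L.mul_mem (L.mul_mem c.ww_mem (c.hAL (c.up_mem _))) (L.inv_mem c.ww_mem))
    refine ⟨u₁ * u₂, mul_mem hu₁ hu₂, ?_⟩
    rw [hπmul i _ (hWV i hu₁) _ (hWV i hu₂), e₁, e₂, c.act_up, c.act_low]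
    funext j; fin_cases j <;> simp
  have hconjmem : ∀ i, ∀ g ∈ E i, (tt i)⁻¹ * g * tt i ∈ L := fun i g hg => mem_cj.1 ((hEt i).le hg)
  have hp : IsPGroup p A := fun a => ⟨1, Subtype.ext (by simpa using c.hA.expA a a.2)⟩
  obtain ⟨n, hn⟩ := IsPGroup.iff_card.1 hp
  have hcard : Fintype.card F = p ^ n := c.card_F.trans hn
  have hn1 : 1 ≤ n := by
    by_contra h0
    rw [show n = 0 by omega, pow_zero] at hcard
    have := c.hq
    omega
  refine ⟨_, F, iF, iF', E, π, Fintype.card_pos_iff.2 ⟨⟨L, 1, T.one_mem, (cj_one L).symm⟩⟩, ⟨n, hn1, hcard⟩,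
    hEP, ?_, fun t ht i => ?_, hπmul, hπker, fun i g hg => ⟨_, hπact i g hg (hconjmem i g hg)⟩,
    fun i X => ?_, fun i j hji g hg v hv => ?_, fun i w => ?_⟩
  · obtain ⟨i, hi⟩ := hLmem
    refine le_antisymm (sup_le (iSup_le hEP) hTP) ?_
    by_contra hne
    refine hLM (le_trans ?_ (h.pm.max ((⨆ i, E i) ⊔ T) (sup_le (iSup_le hEP) hTP) le_sup_right
      fun e => hne e.ge))
    exact le_trans hi.ge (le_trans (le_iSup E i) le_sup_left)
  · refine ⟨eS.symm ⟨cj (t * tt i) L, t * tt i, T.mul_mem ht (htt i), rfl⟩, ?_⟩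
    show cj t (E i) = _
    simp only [E, Equiv.apply_symm_apply]
    rw [show (eS i).1 = cj (tt i) L from hEt i, ← cj_mul]
  · obtain ⟨g₀, hg₀⟩ := c.rho.surjective X
    have hgE : tt i * (g₀ : G) * (tt i)⁻¹ ∈ E i := (hEt i).ge (conj_mem_cj g₀.2)
    refine ⟨_, hgE, fun v hv => ?_⟩
    have e : (⟨_, hconjmem i _ hgE⟩ : ↥L) = g₀ := Subtype.ext (by group)
    rw [hπact i _ hgE (hconjmem i _ hgE) v hv, e, hg₀]
  · have hm : ⁅v, g⁆ ∈ ⁅V, E j⁆ := commutator_mem_commutator hv hg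
    have h0 := (hπker i _ (hWV j hm)).2 (hcross j i hji hm)
    have hgv : g * v * g⁻¹ ∈ V := c.base.conj_V (hEP j hg) hv
    have e := hπmul i _ (hWV j hm) _ hgv
    rw [h0, zero_add, show ⁅v, g⁆ * (g * v * g⁻¹) = v by rw [commutatorElement_def]; group] at e
    exact e.symm
  · obtain ⟨u, hu, he⟩ := hsurj i w
    exact ⟨u, hWV i hu, he, fun j hj => (hπker j u (hWV i hu)).2 (hcross i j (Ne.symm hj) hu)⟩

end Cfsg.Agent.H73.Focal
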