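import Cfsg.Agent.H73.Focal.Coord
import Cfsg.Agent.H73.Focal.Orbit
import Cfsg.Agent.H34.Linear
import Cfsg.Agent.H34.Para.Setup
import Mathlib

/-! The components on a normal elementary abelian subgroup in a group with an offender. -/

set_option autoImplicit false
set_option linter.style.haveILetI false
set_option maxHeartbeats 1000000

namespace Cfsg.Agent.H73.Focal

open Subgroup
open Cfsg.Agent.H34 (Hol holV holHom hol_conj hol_fixed_card hol_faithful hol_card_map holHom_ker)
open Cfsg.Agent.H34.MinOffender (cj conj_mem_cj mem_cj)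
open scoped commutatorElement Matrix

universe u

variable {G : Type u} [Group G] [Finite G] {p : ℕ} [Fact p.Prime]

/-- An offender on a normal subgroup gives coordinates with components. -/
theorem exists_coord (hp2 : p ≠ 2) (S : Sylow p G) (V : Subgroup G) [V.Normal]
    (comm : ∀ a ∈ V, ∀ b ∈ V, a * b = b * a) (expV : ∀ v ∈ V, v ^ p = 1) (M : Subgroup G) (hM : M ≠ ⊤)
    (hmax : ∀ H : Subgroup G, (S : Subgroup G) ≤ H → H ≠ ⊤ → H ≤ M)
    (hCS : centralizer (V : Set G) ⊔ (S : Subgroup G) ≠ ⊤)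
    (op1 : ∀ D : Subgroup G, D.Normal → (∀ g ∈ D, ∃ k : ℕ, g ^ p ^ k ∈ centralizer (V : Set G)) →
      D ≤ centralizer (V : Set G))
    {z : G} (hzV : z ∈ V) (hzS : z ∈ centralizer ((S : Subgroup G) : Set G))
    (hz : z ∉ centralizer ((⊤ : Subgroup G) : Set G)) {B : Subgroup G} (hBS : B ≤ S)
    (hBc : ∀ a ∈ B, ∀ b ∈ B, ⁅a, b⁆ ∈ centralizer (V : Set G))
    (hBe : ∀ b ∈ B, b ^ p ∈ centralizer (V : Set G)) (hBn : ¬ B ≤ centralizer (V : Set G))
    (hBl : Nat.card V * Nat.card ↥(B ⊓ centralizer (V : Set G)) ≤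
      Nat.card B * Nat.card ↥(V ⊓ centralizer (B : Set G))) :
    ∃ (r : ℕ) (F : Type) (_ : Field F) (_ : Fintype F) (n : ℕ), 1 ≤ n ∧ Fintype.card F = p ^ n ∧
      Nonempty (Coord p (S : Subgroup G) V F r) := by
  classical
  set f := holHom V
  set P : Subgroup (Hol V) := (⊤ : Subgroup G).map f
  set T : Subgroup (Hol V) := (S : Subgroup G).map f
  have hker : f.ker = centralizer (V : Set G) := holHom_ker V
  have hCM : centralizer (V : Set G) ≤ M := le_sup_left.trans (hmax _ le_sup_right hCS)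
  have hSM : (S : Subgroup G) ≤ M := le_sup_right.trans (hmax _ le_sup_right hCS)
  have hcomap : ∀ H : Subgroup G, centralizer (V : Set G) ≤ H → (H.map f).comap f = H := fun H hH => by
    rw [comap_map_eq, hker, sup_of_le_left hH]
  have hp2' : 3 ≤ p := by
    have := (Fact.out : p.Prime).two_le
    omega
  have hpm : H34.Para.PMin p P T (M.map f) := by
    refine ⟨map_mono hSM, map_mono le_top, fun e => hM ?_, S.2.map _, fun R hRP hR hTR => ?_,
      fun X hXP hTX hne => ?_⟩
    · have := congrArg (Subgroup.comap f) e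
      rwa [hcomap M hCM, hcomap ⊤ le_top] at this
    · refine le_antisymm ?_ hTR
      intro y hy
      obtain ⟨g, -, rfl⟩ := hRP hy
      have hrel : ¬ p ∣ T.relIndex R := fun hd => S.not_dvd_index (hd.trans (by
        have e1 := relIndex_mul_relIndex T R P hTR hRP
        have e2 : T.relIndex P = ((S : Subgroup G) ⊔ centralizer (V : Set G)).index := by
          show ((S : Subgroup G).map f).relIndex ((⊤ : Subgroup G).map f) = _
          rw [← relIndex_comap, comap_map_eq, hker, relIndex_top_right]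
        exact (Dvd.intro _ e1).trans (e2 ▸ index_dvd_of_le le_sup_left)))
      obtain ⟨k, hk⟩ := IsPGroup.iff_card.1 hR
      have hdvd : T.relIndex R ∣ p ^ k := hk ▸ Subgroup.index_dvd_card _
      obtain ⟨j, -, hj⟩ := (Nat.dvd_prime_pow Fact.out).1 hdvd
      have h1 : T.relIndex R = 1 := by
        rcases j with _ | j
        · simpa using hj
        · exact absurd (hj ▸ dvd_pow_self p (Nat.succ_ne_zero j)) hrel
      exact relIndex_eq_one.1 h1 hy
    · have h1 : X.comap f ≠ ⊤ := fun e => hne (le_antisymm hXP (by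
        rintro _ ⟨g, -, rfl⟩
        exact mem_comap.1 (e ▸ mem_top g)))
      have h2 := hmax _ (map_le_iff_le_comap.1 hTX) h1
      intro y hy
      obtain ⟨g, -, rfl⟩ := hXP hy
      exact mem_map_of_mem f (h2 (mem_comap.2 hy))
  have hFFP : H34.Para.FFP p (holV V).range P T (M.map f) := by
    refine ⟨?_, ?_, H34.hol_map_le_normalizer V ⊤, hol_faithful V ⊤, hpm, fun K hKP hK hn => ?_, ?_⟩
    · rintro _ ⟨a, rfl⟩ _ ⟨b, rfl⟩
      rw [← map_mul, ← map_mul]
      exact congrArg _ (Subtype.ext (comm a a.2 b b.2))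
    · rintro _ ⟨a, rfl⟩
      rw [← map_pow, show a ^ p = 1 from Subtype.ext (expV a a.2), map_one]
    · have hDn : (K.comap f).Normal := ⟨fun x hx g => by
        rw [mem_comap, map_mul, map_mul, map_inv]
        exact H34.conj_mem_of_mem_normalizer (hn (mem_map_of_mem f (mem_top g))) hx⟩
      have hle := op1 _ hDn fun g hg => by
        obtain ⟨k, hk⟩ := hK ⟨f g, hg⟩
        refine ⟨k, ?_⟩
        rw [← hker, MonoidHom.mem_ker, map_pow]
        exact congrArg Subtype.val hk
      refine le_bot_iff.1 fun y hy => ?_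
      obtain ⟨g, -, rfl⟩ := hKP hy
      have := hle (mem_comap.2 hy)
      rw [← hker, MonoidHom.mem_ker] at this
      rw [mem_bot, this]
    · refine ⟨holV V ⟨z, hzV⟩, ⟨_, rfl⟩, ?_, fun hcz => hz ?_⟩
      · rw [mem_centralizer_iff]
        rintro _ ⟨s, hs, rfl⟩
        have h := hol_conj V s ⟨z, hzV⟩
        have hsz : s * z * s⁻¹ = z := by rw [mem_centralizer_iff.1 hzS s hs, mul_inv_cancel_right]
        simp only [hsz] at h
        exact mul_inv_eq_iff_eq_mul.1 h
      · rw [mem_centralizer_iff]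
        intro g _
        have h := hol_conj V g ⟨z, hzV⟩
        rw [mem_centralizer_iff.1 hcz (f g) (mem_map_of_mem f (mem_top g)), mul_inv_cancel_right] at h
        have h' : z = g * z * g⁻¹ := congrArg Subtype.val (SemidirectProduct.inl_injective h)
        conv_rhs => rw [h']
        group
  set B' := B.map f
  have hB'ne : B' ≠ ⊥ := fun e => hBn (by rw [← hker]; exact (Subgroup.map_eq_bot_iff (H := B)).1 e)
  obtain ⟨A₀, hA₀P, hA₀⟩ := H34.Para.exists_minOff (V := (holV V).range) (P := P) (A := B')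
    (p := p) (map_mono le_top) hB'ne (by
      rintro _ ⟨a, ha, rfl⟩ _ ⟨b, hb, rfl⟩
      refine commutatorElement_eq_one_iff_mul_comm.1 ?_
      rw [← map_commutatorElement, ← MonoidHom.mem_ker, hker]
      exact hBc a ha b hb) (by
      rintro _ ⟨a, ha, rfl⟩
      rw [← map_pow, ← MonoidHom.mem_ker, hker]
      exact hBe a ha) (by
      rw [MonoidHom.range_eq_map (holV V), card_map_of_injective SemidirectProduct.inl_injective, card_top,
        ← MonoidHom.range_eq_map, hol_fixed_card V B]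
      refine Nat.le_of_mul_le_mul_right ?_ (Nat.card_pos (α := ↥(B ⊓ centralizer (V : Set G))))
      rw [mul_right_comm, show Nat.card ↥B' * Nat.card ↥(B ⊓ centralizer (V : Set G)) = Nat.card B from
        hol_card_map V B]
      exact hBl)
  have hq : 3 ≤ Nat.card ↥A₀ := by
    obtain ⟨a, ha, ha1⟩ := (bot_or_exists_ne_one A₀).resolve_left hA₀.ne
    have ho : orderOf (⟨a, ha⟩ : ↥A₀) = p := orderOf_eq_prime (Subtype.ext (by simpa using hA₀.expA a ha))
      (fun e => ha1 (congrArg Subtype.val e))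
    exact hp2'.trans (Nat.le_of_dvd Nat.card_pos (ho ▸ orderOf_dvd_natCard _))
  obtain ⟨r, F, iF, iF', E, π, hr, ⟨n, hn, hcard⟩, hEP, hgen, hperm, hmul, hkerπ, hact, hsurjM, hcross, hsurj⟩ :=
    exists_coordinates hFFP hA₀P hA₀ hq
  let π' : Fin r → G → (Fin 2 → F) := fun i v => if hv : v ∈ V then π i (holV V ⟨v, hv⟩) else 0
  have hπ' : ∀ i v (hv : v ∈ V), π' i v = π i (holV V ⟨v, hv⟩) := fun i v hv => dif_pos hv
  have hconj : ∀ i (g v : G) (hv : v ∈ V), π' i (g * v * g⁻¹) = π i (f g * holV V ⟨v, hv⟩ * (f g)⁻¹) := by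
    intro i g v hv
    rw [hπ' i _ (Subgroup.Normal.conj_mem inferInstance v hv g), hol_conj V g ⟨v, hv⟩]
  have hrange : ∀ i, E i ≤ f.range := fun i => (hEP i).trans (map_le_range f ⊤)
  refine ⟨r, F, iF, iF', n, hn, hcard, ⟨{
    L := fun i => (E i).comap f
    π := π'
    hr := hr
    Vn := inferInstance
    comm := comm
    expV := expV
    hS := S.2
    C_le := fun i x hx => mem_comap.2 (by
      rw [MonoidHom.mem_ker.1 (hker.ge hx)]; exact one_mem _)
    op1 := op1
    πmul := fun i v hv w hw => ?_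
    πker := fun i v hv => ?_
    act := fun i g hg => ?_
    act_surj := fun i X => ?_
    cross := fun i j hji g hg v hv => ?_
    surj := fun i w => ?_
    perm := fun s hs i => ?_
    gen := ?_ }⟩⟩
  · rw [hπ' i _ (V.mul_mem hv hw), hπ' i v hv, hπ' i w hw, ← hmul i _ ⟨_, rfl⟩ _ ⟨_, rfl⟩, ← map_mul]
    rfl
  · rw [hπ' i v hv, hkerπ i _ ⟨_, rfl⟩, mem_centralizer_iff, mem_centralizer_iff]
    constructor
    · intro h g hg
      have h2 := hol_conj V g ⟨v, hv⟩
      rw [h (f g) (mem_comap.1 hg), mul_inv_cancel_right] at h2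
      have h' : v = g * v * g⁻¹ := congrArg Subtype.val (SemidirectProduct.inl_injective h2)
      conv_rhs => rw [h']
      group
    · intro h y hy
      obtain ⟨g, rfl⟩ := hrange i hy
      have h2 := hol_conj V g ⟨v, hv⟩
      have hgv : g * v * g⁻¹ = v := by rw [h g (mem_comap.2 hy), mul_inv_cancel_right]
      simp only [hgv] at h2
      exact mul_inv_eq_iff_eq_mul.1 h2
  · obtain ⟨X, hX⟩ := hact i (f g) (mem_comap.1 hg)
    refine ⟨X, fun v hv => ?_⟩
    rw [hconj i g v hv, hX _ ⟨_, rfl⟩, hπ' i v hv]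
  · obtain ⟨y, hy, hX⟩ := hsurjM i X
    obtain ⟨g, rfl⟩ := hrange i hy
    refine ⟨g, mem_comap.2 hy, fun v hv => ?_⟩
    rw [hconj i g v hv, hX _ ⟨_, rfl⟩, hπ' i v hv]
  · rw [hconj i g v hv, hcross i j hji _ (mem_comap.1 hg) _ ⟨_, rfl⟩, hπ' i v hv]
  · obtain ⟨_, ⟨v, rfl⟩, hv, hv'⟩ := hsurj i w
    exact ⟨v, v.2, by rw [hπ' i _ v.2]; exact hv, fun j hj => by rw [hπ' j _ v.2]; exact hv' j hj⟩
  · obtain ⟨j, hj⟩ := hperm (f s) (mem_map_of_mem f hs) i
    refine ⟨j, ?_⟩
    ext x
    rw [mem_cj, mem_comap, mem_comap, ← hj, mem_cj, map_mul, map_mul, map_inv]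
  · refine top_le_iff.1 fun g _ => ?_
    have h1 : ((⨆ i, (E i).comap f) ⊔ (S : Subgroup G)).map f = P := by
      rw [Subgroup.map_sup, Subgroup.map_iSup,
        iSup_congr fun i => map_comap_eq_self (hrange i), hgen]
    have h2 : f g ∈ ((⨆ i, (E i).comap f) ⊔ (S : Subgroup G)).map f := h1 ▸ mem_map_of_mem f (mem_top g)
    obtain ⟨x, hx, e⟩ := h2
    have h3 : x⁻¹ * g ∈ f.ker := by rw [MonoidHom.mem_ker, map_mul, map_inv, e, inv_mul_cancel]
    have h4 : f.ker ≤ (⨆ i, (E i).comap f) ⊔ (S : Subgroup G) := le_trans (fun y hy => mem_comap.2 (by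
      rw [MonoidHom.mem_ker.1 hy]; exact one_mem _)) (le_trans (le_iSup (fun i => (E i).comap f) ⟨0, hr⟩)
      le_sup_left)
    have := mul_mem hx (h4 h3)
    rwa [mul_inv_cancel_left] at this

end Cfsg.Agent.H73.Focal
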