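import Cfsg.Agent.H73.Focal.SL2
import Cfsg.Agent.H34.Para.LLemma
import Mathlib

/-! A normal subgroup `V` with coordinates on which commuting `SL₂`-components act. -/

set_option autoImplicit false
set_option linter.unusedSectionVars false

namespace Cfsg.Agent.H73.Focal

open Subgroup
open Cfsg.Agent.H34.MinOffender
open scoped commutatorElement Matrix

variable {G : Type*} [Group G] {p : ℕ} {S V : Subgroup G} {F : Type} [Field F] {r : ℕ}

/-- `SL₂`-components on `V` permuted by `S`. -/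
structure Coord (p : ℕ) (S V : Subgroup G) (F : Type) [Field F] (r : ℕ) where
  L : Fin r → Subgroup G
  π : Fin r → G → (Fin 2 → F)
  hr : 1 ≤ r
  Vn : V.Normal
  comm : ∀ a ∈ V, ∀ b ∈ V, a * b = b * a
  expV : ∀ v ∈ V, v ^ p = 1
  hS : IsPGroup p S
  C_le : ∀ i, centralizer (V : Set G) ≤ L i
  op1 : ∀ D : Subgroup G, D.Normal → (∀ g ∈ D, ∃ k : ℕ, g ^ p ^ k ∈ centralizer (V : Set G)) →
    D ≤ centralizer (V : Set G)
  πmul : ∀ i, ∀ v ∈ V, ∀ w ∈ V, π i (v * w) = π i v + π i w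
  πker : ∀ i, ∀ v ∈ V, π i v = 0 ↔ v ∈ centralizer ((L i : Subgroup G) : Set G)
  act : ∀ i, ∀ g ∈ L i, ∃ M : Matrix.SpecialLinearGroup (Fin 2) F,
    ∀ v ∈ V, π i (g * v * g⁻¹) = (M : Matrix (Fin 2) (Fin 2) F) *ᵥ π i v
  act_surj : ∀ i (M : Matrix.SpecialLinearGroup (Fin 2) F), ∃ g ∈ L i,
    ∀ v ∈ V, π i (g * v * g⁻¹) = (M : Matrix (Fin 2) (Fin 2) F) *ᵥ π i v
  cross : ∀ i j, j ≠ i → ∀ g ∈ L j, ∀ v ∈ V, π i (g * v * g⁻¹) = π i v
  surj : ∀ i w, ∃ v ∈ V, π i v = w ∧ ∀ j, j ≠ i → π j v = 0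
  perm : ∀ s ∈ S, ∀ i, ∃ j, cj s (L i) = L j
  gen : (⨆ i, L i) ⊔ S = ⊤

namespace Coord

variable (c : Coord p S V F r)
include c

local notation "SL2" => Matrix.SpecialLinearGroup (Fin 2) F
local notation "M2" => Matrix (Fin 2) (Fin 2) F

/-- `g` acts on the `i`-th coordinate as `M`. -/
def Acts (i : Fin r) (g : G) (M : M2) : Prop :=
  ∀ v ∈ V, c.π i (g * v * g⁻¹) = M *ᵥ c.π i v

/-- The product of the components. -/
def Lall : Subgroup G := ⨆ i, c.L i

theorem conjV {g v : G} (hv : v ∈ V) : g * v * g⁻¹ ∈ V := c.Vn.conj_mem v hv g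

theorem pi_one (i : Fin r) : c.π i 1 = 0 := by
  have h := c.πmul i 1 V.one_mem 1 V.one_mem
  rwa [one_mul, left_eq_add] at h

theorem pi_inv (i : Fin r) {v : G} (hv : v ∈ V) : c.π i v⁻¹ = -c.π i v := by
  rw [eq_neg_iff_add_eq_zero, ← c.πmul i _ (V.inv_mem hv) _ hv, inv_mul_cancel, c.pi_one]

theorem pi_div (i : Fin r) {v w : G} (hv : v ∈ V) (hw : w ∈ V) :
    c.π i (v * w⁻¹) = c.π i v - c.π i w := by
  rw [c.πmul i _ hv _ (V.inv_mem hw), c.pi_inv i hw, sub_eq_add_neg]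

theorem L_le (i : Fin r) : c.L i ≤ c.Lall := le_iSup c.L i

theorem C_le_Lall : centralizer (V : Set G) ≤ c.Lall := (c.C_le ⟨0, c.hr⟩).trans (c.L_le _)

theorem acts_mul {i : Fin r} {g h : G} {M N : M2} (hg : c.Acts i g M) (hh : c.Acts i h N) :
    c.Acts i (g * h) (M * N) := by
  intro v hv
  rw [show g * h * v * (g * h)⁻¹ = g * (h * v * h⁻¹) * g⁻¹ by group, hg _ (c.conjV hv), hh v hv,
    Matrix.mulVec_mulVec]

theorem acts_inv {i : Fin r} {g : G} {M : SL2} (hg : c.Acts i g M) :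
    c.Acts i g⁻¹ ((M⁻¹ : SL2) : M2) := by
  intro v hv
  have h := hg (g⁻¹ * v * g⁻¹⁻¹) (c.conjV hv)
  rw [show g * (g⁻¹ * v * g⁻¹⁻¹) * g⁻¹ = v by group] at h
  rw [h, Matrix.mulVec_mulVec, ← Matrix.SpecialLinearGroup.coe_mul, inv_mul_cancel,
    Matrix.SpecialLinearGroup.coe_one, Matrix.one_mulVec]

theorem acts_unique {i : Fin r} {g : G} {M N : M2} (hM : c.Acts i g M) (hN : c.Acts i g N) :
    M = N := by
  refine Matrix.ext_of_mulVec_single fun j => ?_
  obtain ⟨v, hv, e, -⟩ := c.surj i (Pi.single j 1)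
  rw [← e, ← hM v hv, hN v hv]

theorem acts_C (i : Fin r) {g : G} (hg : g ∈ centralizer (V : Set G)) : c.Acts i g 1 := by
  intro v hv
  rw [Matrix.one_mulVec]
  congr 1
  rw [← mem_centralizer_iff.1 hg v hv, mul_inv_cancel_right]

theorem acts_one (i : Fin r) : c.Acts i 1 1 := c.acts_C i (one_mem _)

theorem acts_cross {i j : Fin r} (h : j ≠ i) {g : G} (hg : g ∈ c.L j) : c.Acts i g 1 := fun v hv => by
  rw [c.cross i j h g hg v hv, Matrix.one_mulVec]

theorem exists_acts {g : G} (hg : g ∈ c.Lall) (i : Fin r) : ∃ M : SL2, c.Acts i g M := by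
  induction hg using Subgroup.iSup_induction' with
  | hp j x hx =>
    by_cases h : j = i
    · subst h; exact c.act j x hx
    · exact ⟨1, by simpa using c.acts_cross h hx⟩
  | h1 => exact ⟨1, by simpa using c.acts_one i⟩
  | hmul x y _ _ ihx ihy =>
    obtain ⟨M, hM⟩ := ihx
    obtain ⟨N, hN⟩ := ihy
    exact ⟨M * N, by simpa using c.acts_mul hM hN⟩

theorem cj_Lall {s : G} (hs : s ∈ S) : cj s c.Lall ≤ c.Lall := by
  rw [Lall, cj, Subgroup.map_iSup]
  refine iSup_le fun i => ?_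
  obtain ⟨j, hj⟩ := c.perm s hs i
  exact hj.le.trans (c.L_le j)

theorem Lall_normal [Finite G] : c.Lall.Normal := by
  rw [← normalizer_eq_top_iff, ← top_le_iff, ← c.gen]
  refine sup_le (show c.Lall ≤ _ from le_normalizer) fun s hs =>
    H34.Para.mem_normalizer_of_cj_eq (eq_of_le_of_card_ge (c.cj_Lall hs) (card_cj _ _).ge)

theorem kerAll_iff {v : G} (hv : v ∈ V) :
    (∀ i, c.π i v = 0) ↔ v ∈ centralizer ((c.Lall : Subgroup G) : Set G) := by
  constructor
  · intro h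
    exact le_centralizer_iff.1 (show c.Lall ≤ centralizer ((zpowers v : Subgroup G) : Set G) from
      iSup_le fun i => le_centralizer_iff.1 (zpowers_le.2 ((c.πker i v hv).1 (h i)))) (mem_zpowers v)
  · intro h i
    exact (c.πker i v hv).2 (centralizer_le (SetLike.coe_subset_coe.2 (c.L_le i)) h)

/-- Elements trivial on every coordinate centralise `V`. -/
theorem mem_C_of [Finite G] [Fact p.Prime] {g : G} (h : ∀ i, c.Acts i g 1) :
    g ∈ centralizer (V : Set G) := by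
  haveI := c.Vn
  haveI := c.Lall_normal
  have hnV0 : (V ⊓ centralizer ((c.Lall : Subgroup G) : Set G)).Normal := inferInstance
  let D : Subgroup G :=
    { carrier := {x | ∀ i, c.Acts i x 1}
      one_mem' := c.acts_one
      mul_mem' := fun {x y} hx hy i => by simpa using c.acts_mul (hx i) (hy i)
      inv_mem' := fun {x} hx i => by
        simpa using c.acts_inv (M := 1) (by simpa using hx i) }
  have hDiff : ∀ x : G, x ∈ D ↔ ∀ v ∈ V, ⁅x, v⁆ ∈ V ⊓ centralizer ((c.Lall : Subgroup G) : Set G) := by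
    intro x
    constructor
    · intro hx v hv
      have hm : ⁅x, v⁆ ∈ V := by rw [commutatorElement_def]; exact V.mul_mem (c.conjV hv) (V.inv_mem hv)
      refine ⟨hm, (c.kerAll_iff hm).1 fun i => ?_⟩
      rw [commutatorElement_def, c.pi_div i (c.conjV hv) hv, hx i v hv, Matrix.one_mulVec, sub_self]
    · intro hx i v hv
      obtain ⟨h1, h2⟩ := hx v hv
      have h3 := (c.kerAll_iff h1).2 h2 i
      rw [commutatorElement_def, c.pi_div i (c.conjV hv) hv, sub_eq_zero] at h3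
      rw [Matrix.one_mulVec, h3]
  have hDn : D.Normal := ⟨fun x hx g => (hDiff _).2 fun v hv => by
    have e := (hDiff x).1 hx (g⁻¹ * v * g⁻¹⁻¹) (c.conjV hv)
    have e2 := hnV0.conj_mem _ e g
    rwa [show g * ⁅x, g⁻¹ * v * g⁻¹⁻¹⁆ * g⁻¹ = ⁅g * x * g⁻¹, v⁆ by
      simp only [commutatorElement_def]; group] at e2⟩
  refine c.op1 D hDn (fun x hx => ?_) (show g ∈ D from h)
  obtain ⟨l, hl, s, hs, e⟩ : ∃ l ∈ c.Lall, ∃ s ∈ S, x = l * s := by
    have : x ∈ c.Lall ⊔ S := c.gen ▸ mem_top x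
    rw [← SetLike.mem_coe, normal_mul] at this
    obtain ⟨l, hl, s, hs, e⟩ := this
    exact ⟨l, hl, s, hs, e.symm⟩
  obtain ⟨k, hk⟩ := c.hS ⟨s, hs⟩
  refine ⟨k + 1, ?_⟩
  set y := x ^ p ^ k
  have hy : y ∈ c.Lall := by
    refine (QuotientGroup.eq_one_iff _).1 ?_
    have hk' : s ^ p ^ k = 1 := congrArg Subtype.val hk
    show ((x ^ p ^ k : G) : G ⧸ c.Lall) = 1
    rw [e, QuotientGroup.mk_pow, QuotientGroup.mk_mul, (QuotientGroup.eq_one_iff l).2 hl, one_mul,
      ← QuotientGroup.mk_pow, hk', QuotientGroup.mk_one]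
  rw [pow_succ, pow_mul]
  refine mem_centralizer_iff.2 fun v hv => ?_
  obtain ⟨hc1, hc2⟩ := (hDiff y).1 (pow_mem hx _) v hv
  have hfix : y * ⁅y, v⁆ * y⁻¹ = ⁅y, v⁆ := by
    rw [mem_centralizer_iff.1 hc2 y hy, mul_inv_cancel_right]
  have hpow : ∀ m : ℕ, y ^ m * v * (y ^ m)⁻¹ = ⁅y, v⁆ ^ m * v := by
    intro m
    induction m with
    | zero => simp
    | succ m ih =>
      have hm : y * ⁅y, v⁆ ^ m * y⁻¹ = ⁅y, v⁆ ^ m := by
        have := (congrArg (fun z => z ^ m) hfix)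
        rwa [conj_pow] at this
      calc y ^ (m + 1) * v * (y ^ (m + 1))⁻¹ = y * (y ^ m * v * (y ^ m)⁻¹) * y⁻¹ := by
            rw [pow_succ']; group
        _ = (y * ⁅y, v⁆ ^ m * y⁻¹) * (y * v * y⁻¹) := by rw [ih]; group
        _ = ⁅y, v⁆ ^ (m + 1) * v := by rw [hm, pow_succ, commutatorElement_def]; group
  have e2 := hpow p
  rw [c.expV _ hc1, one_mul] at e2
  calc v * y ^ p = (y ^ p * v * (y ^ p)⁻¹) * y ^ p := by rw [e2]
    _ = y ^ p * v := by rw [inv_mul_cancel_right]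

/-- All prescribed coordinate actions are realised. -/
theorem exists_Lall (M : Fin r → SL2) : ∃ l ∈ c.Lall, ∀ i, c.Acts i l (M i) := by
  classical
  suffices h : ∀ s : Finset (Fin r), ∃ l ∈ c.Lall,
      ∀ i, c.Acts i l ((if i ∈ s then M i else 1 : SL2) : M2) by
    obtain ⟨l, hl, h'⟩ := h Finset.univ
    exact ⟨l, hl, fun i => by simpa using h' i⟩
  intro s
  induction s using Finset.induction with
  | empty => exact ⟨1, one_mem _, fun i => by simpa using c.acts_one i⟩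
  | @insert j s hjs ih =>
    obtain ⟨l, hl, h⟩ := ih
    obtain ⟨g, hg, hgM⟩ := c.act_surj j (M j)
    refine ⟨g * l, mul_mem (c.L_le j hg) hl, fun i => ?_⟩
    by_cases hij : i = j
    · subst hij
      have := c.acts_mul (hgM : c.Acts i g _) (h i)
      simpa [hjs] using this
    · have := c.acts_mul (c.acts_cross (Ne.symm hij) hg) (h i)
      simpa [hij] using this

/-- An element acting linearly with determinant one on every coordinate lies in the product. -/
theorem mem_Lall_of [Finite G] [Fact p.Prime] {g : G} (h : ∀ i, ∃ M : SL2, c.Acts i g M) :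
    g ∈ c.Lall := by
  choose M hM using h
  obtain ⟨l, hl, hlM⟩ := c.exists_Lall M
  have : l⁻¹ * g ∈ centralizer (V : Set G) := c.mem_C_of fun i => by
    have h1 := c.acts_mul (c.acts_inv (hlM i)) (hM i)
    rwa [← Matrix.SpecialLinearGroup.coe_mul, inv_mul_cancel, Matrix.SpecialLinearGroup.coe_one] at h1
  have := mul_mem hl (c.C_le_Lall this)
  rwa [mul_inv_cancel_left] at this

/-- The element acting as `-1` on one coordinate. -/
theorem exists_neg (i : Fin r) : ∃ z ∈ c.L i, c.Acts i z (-1) := by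
  obtain ⟨z, hz, h⟩ := c.act_surj i (-1)
  exact ⟨z, hz, fun v hv => by simpa using h v hv⟩

variable [Fintype F] [hp : Fact p.Prime] [CharP F p]

omit [Fintype F] in
theorem two_ne_zero (hp2 : p ≠ 2) : (2 : F) ≠ 0 := by
  intro h
  have : ((2 : ℕ) : F) = 0 := by exact_mod_cast h
  rw [CharP.cast_eq_zero_iff F p] at this
  exact hp2 ((Nat.prime_dvd_prime_iff_eq hp.out Nat.prime_two).1 this)

omit [Fintype F] in
theorem L_inj (hp2 : p ≠ 2) {i j : Fin r} (h : c.L i = c.L j) : i = j := by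
  by_contra hne
  obtain ⟨z, hz, hzi⟩ := c.exists_neg i
  have h1 := c.acts_unique hzi (c.acts_cross (Ne.symm hne) (h ▸ hz))
  have := congrFun (congrFun h1 0) 0
  simp only [Matrix.neg_apply, Matrix.one_apply_eq] at this
  exact c.two_ne_zero hp2 (by linear_combination -this)

omit [Fintype F] in
/-- The lift of a coordinate vector inverted by the central involution of its component. -/
theorem exists_lift (hp2 : p ≠ 2) [Finite G] (i : Fin r) (w : Fin 2 → F) :
    ∃ v ∈ V, c.π i v = w ∧ (∀ j, j ≠ i → c.π j v = 0) ∧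
      ∀ z ∈ c.L i, c.Acts i z (-1) → z * v * z⁻¹ = v⁻¹ := by
  have h2 := c.two_ne_zero hp2
  obtain ⟨u, hu, hui, huj⟩ := c.surj i ((2 : F)⁻¹ • w)
  obtain ⟨z, hz, hzi⟩ := c.exists_neg i
  have hsq : ∀ z' ∈ c.L i, c.Acts i z' (-1) → z' * z ∈ centralizer (V : Set G) := by
    intro z' hz' h'
    refine c.mem_C_of fun j => ?_
    by_cases hj : j = i
    · subst hj; simpa using c.acts_mul h' hzi
    · simpa using c.acts_mul (c.acts_cross (Ne.symm hj) hz') (c.acts_cross (Ne.symm hj) hz)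
  set v := u * (z * u * z⁻¹)⁻¹
  refine ⟨v, V.mul_mem hu (V.inv_mem (c.conjV hu)), ?_, fun j hj => ?_, fun z' hz' h' => ?_⟩
  · rw [c.pi_div i hu (c.conjV hu), hzi u hu, hui, Matrix.neg_mulVec, Matrix.one_mulVec, sub_neg_eq_add,
      ← add_smul, ← two_mul, mul_inv_cancel₀ h2, one_smul]
  · rw [c.pi_div j hu (c.conjV hu), c.acts_cross (Ne.symm hj) hz u hu, huj j hj, Matrix.mulVec_zero,
      sub_zero]
  · have hcz := hsq z' hz' h'
    have e2 : z' * (z * u * z⁻¹) * z'⁻¹ = u := by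
      rw [show z' * (z * u * z⁻¹) * z'⁻¹ = (z' * z) * u * (z' * z)⁻¹ by group,
        ← mem_centralizer_iff.1 hcz u hu, mul_inv_cancel_right]
    have hz'z : z'⁻¹ * z ∈ centralizer (V : Set G) := by
      refine c.mem_C_of fun j => ?_
      by_cases hj : j = i
      · subst hj
        have h'' : c.Acts j z' ((-1 : SL2) : M2) := by simpa using h'
        simpa using c.acts_mul (c.acts_inv h'') hzi
      · simpa using c.acts_mul (c.acts_cross (Ne.symm hj) (inv_mem hz')) (c.acts_cross (Ne.symm hj) hz)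
    have e1 : z' * u * z'⁻¹ = z * u * z⁻¹ := by
      have := mem_centralizer_iff.1 hz'z u hu
      calc z' * u * z'⁻¹ = z' * (u * (z'⁻¹ * z)) * z⁻¹ := by group
        _ = z * u * z⁻¹ := by rw [this]; group
    calc z' * v * z'⁻¹ = (z' * u * z'⁻¹) * (z' * (z * u * z⁻¹) * z'⁻¹)⁻¹ := by simp only [v]; group
      _ = v⁻¹ := by rw [e1, e2]; simp only [v]; group

omit [Fintype F] in
/-- An element of `V` inverted by the central involution with zero `i`-th coordinate is trivial. -/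
theorem lift_unique (hp2 : p ≠ 2) {i : Fin r} {z v : G} (hz : z ∈ c.L i) (hv : v ∈ V)
    (hzv : z * v * z⁻¹ = v⁻¹) (h0 : c.π i v = 0) : v = 1 := by
  have h1 := mem_centralizer_iff.1 ((c.πker i v hv).1 h0) z hz
  have h2 : v * v = 1 := by
    have e : z * v * z⁻¹ = v := by rw [h1, mul_inv_cancel_right]
    rw [hzv] at e
    nth_rewrite 1 [← e]
    exact inv_mul_cancel v
  have hd : orderOf v ∣ Nat.gcd 2 p :=
    Nat.dvd_gcd (orderOf_dvd_of_pow_eq_one (by rw [pow_two, h2])) (orderOf_dvd_of_pow_eq_one (c.expV v hv))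
  rw [(Nat.coprime_primes Nat.prime_two hp.out).2 hp2.symm] at hd
  exact orderOf_eq_one_iff.1 (Nat.dvd_one.1 hd)

omit [Fintype F] [CharP F p] in
/-- Coordinates of conjugates. -/
theorem ker_conj {s : G} {i j : Fin r} (h : cj s (c.L i) = c.L j) {v : G} (hv : v ∈ V) :
    c.π j (s * v * s⁻¹) = 0 ↔ c.π i v = 0 := by
  rw [c.πker j _ (c.conjV hv), c.πker i v hv, ← h, mem_centralizer_iff, mem_centralizer_iff]
  constructor
  · intro H g hg
    have := H (s * g * s⁻¹) (conj_mem_cj hg)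
    have := congrArg (fun x => s⁻¹ * x * s) this
    simpa [mul_assoc] using this
  · intro H g hg
    have h1 := H (s⁻¹ * g * s) (mem_cj.1 hg)
    have := congrArg (fun x => s * x * s⁻¹) h1
    simpa [mul_assoc] using this

omit [CharP F p] in
/-- A stabiliser of a component acts semilinearly on its coordinate. -/
theorem exists_semilinear {s : G} {i : Fin r} (h : cj s (c.L i) = c.L i) :
    ∃ (ψ : (Fin 2 → F) →+ (Fin 2 → F)) (σ : F → F), Function.Bijective ψ ∧
      (∀ v ∈ V, c.π i (s * v * s⁻¹) = ψ (c.π i v)) ∧ ∀ a w, ψ (a • w) = σ a • ψ w := by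
  choose u hu hui huj using c.surj i
  let f : (Fin 2 → F) → (Fin 2 → F) := fun w => c.π i (s * u w * s⁻¹)
  have hf : ∀ v ∈ V, c.π i (s * v * s⁻¹) = f (c.π i v) := by
    intro v hv
    have h0 : c.π i (v * (u (c.π i v))⁻¹) = 0 := by rw [c.pi_div i hv (hu _), hui, sub_self]
    have h1 := (c.ker_conj h (V.mul_mem hv (V.inv_mem (hu _)))).2 h0
    rw [show s * (v * (u (c.π i v))⁻¹) * s⁻¹ = (s * v * s⁻¹) * (s * u (c.π i v) * s⁻¹)⁻¹ by group,
      c.pi_div i (c.conjV hv) (c.conjV (hu _)), sub_eq_zero] at h1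
    exact h1
  let ψ : (Fin 2 → F) →+ (Fin 2 → F) := AddMonoidHom.mk' f fun a b => by
    have e := hf (u a * u b) (V.mul_mem (hu a) (hu b))
    rw [c.πmul i _ (hu a) _ (hu b), hui, hui, show s * (u a * u b) * s⁻¹ =
      (s * u a * s⁻¹) * (s * u b * s⁻¹) by group, c.πmul i _ (c.conjV (hu a)) _ (c.conjV (hu b))] at e
    exact e.symm
  have hinj : Function.Injective ψ := by
    refine (injective_iff_map_eq_zero ψ).2 fun w hw => ?_
    rw [← hui w]
    exact (c.ker_conj h (hu w)).1 hw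
  have hbij : Function.Bijective ψ := ⟨hinj, Finite.surjective_of_injective hinj⟩
  let e := AddEquiv.ofBijective ψ hbij
  have hcomm : ∀ (M' : SL2), ∃ M : SL2, ∀ w, ψ ((M : M2) *ᵥ w) = (M' : M2) *ᵥ ψ w := by
    intro M'
    obtain ⟨g, hg, hgM⟩ := c.act_surj i M'
    obtain ⟨M, hM⟩ := c.act i (s⁻¹ * g * s) (mem_cj.1 (h.ge hg))
    refine ⟨M, fun w => ?_⟩
    have e1 := hM (u w) (hu w)
    rw [hui] at e1
    have e2 := hf ((s⁻¹ * g * s) * u w * (s⁻¹ * g * s)⁻¹) (c.conjV (hu w))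
    rw [e1, show s * (s⁻¹ * g * s * u w * (s⁻¹ * g * s)⁻¹) * s⁻¹ = g * (s * u w * s⁻¹) * g⁻¹ by group,
      hgM _ (c.conjV (hu w))] at e2
    exact e2.symm
  have hscal : ∀ a : F, ∃ b : F, ∀ w, ψ (a • w) = b • ψ w := by
    intro a
    let g : (Fin 2 → F) →+ (Fin 2 → F) :=
      ψ.comp ((DistribSMul.toAddMonoidHom (Fin 2 → F) a).comp e.symm.toAddMonoidHom)
    obtain ⟨b, hb⟩ := commutant_scalar g fun M' x => by
      obtain ⟨M, hM⟩ := hcomm M'
      have h1 : e.symm ((M' : M2) *ᵥ x) = (M : M2) *ᵥ e.symm x := by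
        apply e.injective
        rw [e.apply_symm_apply]
        show _ = ψ _
        rw [hM]
        exact congrArg _ (e.apply_symm_apply x).symm
      show ψ (a • e.symm ((M' : M2) *ᵥ x)) = (M' : M2) *ᵥ ψ (a • e.symm x)
      rw [h1, ← Matrix.mulVec_smul, hM]
    refine ⟨b, fun w => ?_⟩
    have hw := hb (ψ w)
    rw [← hw]
    show _ = ψ (a • e.symm (e w))
    rw [e.symm_apply_apply]
  choose σ hσ using hscal
  exact ⟨ψ, σ, hbij, hf, hσ⟩

/-- A linearly acting element of `p`-power order acts as an element of `SL₂`. -/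
theorem acts_of_linear {s : G} {k : ℕ} (hs : s ^ p ^ k = 1) {i : Fin r}
    (ψ : (Fin 2 → F) →+ (Fin 2 → F)) (hψ : ∀ v ∈ V, c.π i (s * v * s⁻¹) = ψ (c.π i v))
    (hlin : ∀ (a : F) w, ψ (a • w) = a • ψ w) : ∃ M : SL2, c.Acts i s M := by
  let f : (Fin 2 → F) →ₗ[F] (Fin 2 → F) := { toFun := ψ, map_add' := ψ.map_add, map_smul' := hlin }
  set M : M2 := LinearMap.toMatrix' f
  have hM : c.Acts i s M := fun v hv => by
    rw [hψ v hv, LinearMap.toMatrix'_mulVec]; rfl
  have hpow : ∀ m : ℕ, c.Acts i (s ^ m) (M ^ m) := by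
    intro m
    induction m with
    | zero => simpa using c.acts_one i
    | succ m ih => rw [pow_succ, pow_succ]; exact c.acts_mul ih hM
  have h1 : M ^ p ^ k = 1 := c.acts_unique (hpow (p ^ k)) (hs ▸ c.acts_one i)
  exact ⟨⟨M, det_eq_one h1⟩, hM⟩

end Coord

end Cfsg.Agent.H73.Focal
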