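import Cfsg.Agent.H73.Focal.Basic
import Mathlib

/-! Counting layers moved by the `p'`-elements when there are at most two noncentral factors. -/

set_option autoImplicit false

namespace Cfsg.Agent.H73.Focal

open Subgroup
open scoped commutatorElement Pointwise

variable {G : Type*} [Group G] {p : ℕ}

/-- The `p'`-elements of `X` are trivial from `B` modulo `A`. -/
def Triv (p : ℕ) (X A B : Subgroup G) : Prop :=
  ∀ x ∈ X, (orderOf x).Coprime p → ∀ b ∈ B, ⁅x, b⁆ ∈ A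

/-- A layer inverted by `z` with `J` quadratic, irreducible for `X`. -/
structure Piece (X J : Subgroup G) (z : G) (U W : Subgroup G) : Prop where
  hWU : W ≤ U
  hU : X ≤ normalizer (U : Set G)
  hW : X ≤ normalizer (W : Set G)
  irr : ∀ H : Subgroup G, X ≤ normalizer (H : Set G) → W ≤ H → H ≤ U → H = W ∨ H = U
  neg : ∀ u ∈ U, z * u * z⁻¹ * u ∈ W
  quad : ∀ g ∈ J, ∀ u ∈ U, ⁅g, ⁅g, u⁆⁆ ∈ W

/-- A series of `R` with at most two noncentral factors. -/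
structure TwoLayers (p : ℕ) (X J R : Subgroup G) (z : G) (U₁ W₁ U₂ W₂ : Subgroup G) : Prop where
  hR : IsPGroup p R
  hRX : R ≤ X
  hXR : X ≤ normalizer (R : Set G)
  hzX : z ∈ X
  hJX : J ≤ X
  p1 : Piece X J z U₁ W₁
  p2 : Piece X J z U₂ W₂
  h12 : U₁ ≤ W₂
  h2R : U₂ ≤ R
  t0 : Triv p X ⊥ W₁
  t1 : Triv p X U₁ W₂
  t2 : Triv p X U₂ R

variable [Finite G] [hp : Fact p.Prime] {X J R : Subgroup G} {z : G} {U W A B : Subgroup G}

omit [Finite G] hp in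
/-- `A` covers the factor `U/W`. -/
def Covers (A U W : Subgroup G) : Prop := U ≤ (A ⊓ U) ⊔ W

omit [Finite G] hp in
theorem Covers.mono (h : Covers A U W) (hAB : A ≤ B) : Covers B U W :=
  h.trans (sup_le_sup_right (inf_le_inf_right _ hAB) _)

omit [Finite G] hp in
theorem le_normalizer_inf_sup (hA : X ≤ normalizer (A : Set G)) (hU : X ≤ normalizer (U : Set G))
    (hW : X ≤ normalizer (W : Set G)) : X ≤ normalizer (((A ⊓ U) ⊔ W : Subgroup G) : Set G) := by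
  intro x hx
  rw [mem_normalizer_iff_map_conj_eq, Subgroup.map_sup,
    Subgroup.map_inf _ _ _ (MulAut.conj x).injective, mem_normalizer_iff_map_conj_eq.1 (hA hx),
    mem_normalizer_iff_map_conj_eq.1 (hU hx), mem_normalizer_iff_map_conj_eq.1 (hW hx)]

omit [Finite G] hp in
theorem inf_le_of_not_covers (P : Piece X J z U W) (hA : X ≤ normalizer (A : Set G))
    (h : ¬ Covers A U W) : A ⊓ U ≤ W := by
  rcases P.irr _ (le_normalizer_inf_sup hA P.hU P.hW) le_sup_right (sup_le inf_le_right P.hWU) with e | e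
  · exact le_sup_left.trans e.le
  · exact absurd e.ge h

/-- One step for a layer on which the `p'`-elements are trivial. -/
theorem triv_step (hR : IsPGroup p R) (hRX : R ≤ X) (hAB : A ≤ B) (hBR : B ≤ R)
    (hA : X ≤ normalizer (A : Set G)) (hB : X ≤ normalizer (B : Set G)) {F F' : Subgroup G}
    (h : Triv p X A (B ⊓ F)) (ht : Triv p X F F') : Triv p X A (B ⊓ F') := by
  intro x hx hxp b hb
  have hc : ⁅x, b⁆ ∈ B := by
    rw [commutatorElement_def]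
    exact B.mul_mem ((mem_normalizer_iff.1 (hB hx) b).1 hb.1) (B.inv_mem hb.1)
  exact comm_mem_of_twice (hR.to_le hBR) hxp hb.1 hc hAB ((hBR.trans hRX).trans hA)
    (h x hx hxp _ ⟨hc, ht x hx hxp b hb.2⟩) (hA hx)

omit [Finite G] hp in
/-- One step for a layer covered by `A` and `B` alike. -/
theorem triv_piece (P : Piece X J z U W) (hAB : A ≤ B) (hRX : R ≤ X) (hBR : B ≤ R) (hUR : U ≤ R)
    (hA : X ≤ normalizer (A : Set G)) (hB : X ≤ normalizer (B : Set G))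
    (hcov : Covers B U W → Covers A U W)
    (h : Triv p X A (B ⊓ W)) : Triv p X A (B ⊓ U) := by
  intro x hx hxp b hb
  by_cases hc : Covers B U W
  · have hn : A ⊓ U ≤ normalizer (W : Set G) := fun a ha => P.hW (hRX (hUR ha.2))
    have hb' : b ∈ (A ⊓ U) ⊔ W := hcov hc hb.2
    rw [← SetLike.mem_coe, coe_mul_of_left_le_normalizer_right _ _ hn] at hb'
    obtain ⟨a, ha, w, hw, rfl⟩ := hb'
    have hwB : w ∈ B := by
      have := B.mul_mem (B.inv_mem (hAB ha.1)) hb.1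
      rwa [inv_mul_cancel_left] at this
    have h1 := h x hx hxp w ⟨hwB, hw⟩
    have h2 : ⁅x, a⁆ ∈ A := by
      rw [commutatorElement_def]
      exact A.mul_mem ((mem_normalizer_iff.1 (hA hx) a).1 ha.1) (A.inv_mem ha.1)
    rw [show ⁅x, a * w⁆ = ⁅x, a⁆ * (a * ⁅x, w⁆ * a⁻¹) by simp only [commutatorElement_def]; group]
    exact A.mul_mem h2 (A.mul_mem (A.mul_mem ha.1 h1) (A.inv_mem ha.1))
  · exact h x hx hxp b ⟨hb.1, inf_le_of_not_covers P hB hc hb⟩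

variable {U₁ W₁ U₂ W₂ : Subgroup G}

theorem TwoLayers.triv_of_covers (T : TwoLayers p X J R z U₁ W₁ U₂ W₂) (hAB : A ≤ B) (hBR : B ≤ R)
    (hA : X ≤ normalizer (A : Set G)) (hB : X ≤ normalizer (B : Set G))
    (h1 : Covers B U₁ W₁ → Covers A U₁ W₁) (h2 : Covers B U₂ W₂ → Covers A U₂ W₂) :
    Triv p X A B := by
  have hstep := fun {F F' : Subgroup G} => triv_step T.hR T.hRX hAB hBR hA hB (F := F) (F' := F')
  have h0 : Triv p X A (B ⊓ ⊥) := fun x _ _ b hb => by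
    rw [mem_bot.1 hb.2, commutatorElement_one_right]; exact one_mem _
  have hU1R : U₁ ≤ R := T.h12.trans (T.p2.hWU.trans T.h2R)
  have h := hstep (triv_piece T.p2 hAB T.hRX hBR T.h2R hA hB h2
    (hstep (triv_piece T.p1 hAB T.hRX hBR hU1R hA hB h1 (hstep h0 T.t0)) T.t1)) T.t2
  rwa [inf_eq_left.2 hBR] at h

/-- In a chain with two moved layers, the upper one has a single natural piece. -/
theorem TwoLayers.exists_natural (T : TwoLayers p X J R z U₁ W₁ U₂ W₂) {V W' U' : Subgroup G}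
    (hV : X ≤ normalizer (V : Set G)) (hW' : X ≤ normalizer (W' : Set G))
    (hU' : X ≤ normalizer (U' : Set G)) (hVW : V ≤ W') (hWU : W' ≤ U') (hUR : U' ≤ R)
    (hVt : ¬ Triv p X ⊥ V) :
    ∃ Y Y₀ : Subgroup G, W' ≤ Y₀ ∧ Y₀ ≤ Y ∧ Y ≤ U' ∧ Triv p X W' Y₀ ∧ Triv p X Y U' ∧
      (∀ y ∈ Y, z * y * z⁻¹ * y ∈ Y₀ ∧ ∀ g ∈ J, ⁅g, ⁅g, y⁆⁆ ∈ Y₀) ∨ Triv p X W' U' := by
  classical
  by_cases ht : Triv p X W' U'
  · exact ⟨U', U', Or.inr ht⟩
  have hVR : V ≤ R := hVW.trans (hWU.trans hUR)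
  have hV12 : Covers V U₁ W₁ ∧ ¬ Covers ⊥ U₁ W₁ ∨ Covers V U₂ W₂ ∧ ¬ Covers ⊥ U₂ W₂ := by
    by_contra hno
    push Not at hno
    exact hVt (T.triv_of_covers bot_le hVR (fun x _ => by
      rw [mem_normalizer_iff_map_conj_eq, Subgroup.map_bot]) hV hno.1 hno.2)
  have hpick : ∀ {U W : Subgroup G}, Piece X J z U W → U ≤ R → Covers U' U W → ¬ Covers W' U W →
      (∀ Y Y₀ : Subgroup G, W' ≤ Y₀ → Y₀ ≤ Y → Y ≤ U' → X ≤ normalizer (Y : Set G) → X ≤ normalizer (Y₀ : Set G) →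
        Covers Y U W → ¬ Covers Y₀ U W → Triv p X W' Y₀ ∧ Triv p X Y U') →
      ∃ Y Y₀ : Subgroup G, W' ≤ Y₀ ∧ Y₀ ≤ Y ∧ Y ≤ U' ∧ Triv p X W' Y₀ ∧ Triv p X Y U' ∧
        (∀ y ∈ Y, z * y * z⁻¹ * y ∈ Y₀ ∧ ∀ g ∈ J, ⁅g, ⁅g, y⁆⁆ ∈ Y₀) ∨ Triv p X W' U' := by
    intro U W P hU hc hnc htr
    refine ⟨(U' ⊓ U) ⊔ W', (U' ⊓ W) ⊔ W', Or.inl ?_⟩
    have hUX : U' ⊓ U ≤ normalizer (W' : Set G) := fun u hu => hW' (T.hRX (hU hu.2))
    have hY₀ : (U' ⊓ W) ⊔ W' ≤ (U' ⊓ U) ⊔ W' := sup_le_sup_right (inf_le_inf_left _ P.hWU) _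
    have hncY : ¬ Covers ((U' ⊓ W) ⊔ W') U W := by
      intro h
      refine hnc (h.trans (sup_le ?_ le_sup_right))
      intro u hu0
      have huU : u ∈ U := hu0.2
      have hu : u ∈ ((U' ⊓ W : Subgroup G) : Set G) * (W' : Set G) := by
        rw [← coe_mul_of_left_le_normalizer_right _ _ ((inf_le_inf_left _ P.hWU).trans hUX)]
        exact hu0.1
      obtain ⟨a, ha, w, hw, rfl⟩ := hu
      have hwU : w ∈ U := by
        have := U.mul_mem (U.inv_mem (P.hWU ha.2)) huU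
        rwa [inv_mul_cancel_left] at this
      exact mul_mem (mem_sup_right ha.2) (mem_sup_left ⟨hw, hwU⟩)
    obtain ⟨t₁, t₂⟩ := htr _ _ le_sup_right hY₀ (sup_le inf_le_left hWU)
      (le_normalizer_inf_sup hU' P.hU hW') (le_normalizer_inf_sup hU' P.hW hW')
      (hc.trans (sup_le_sup_right (le_inf le_sup_left inf_le_right) _)) hncY
    refine ⟨le_sup_right, hY₀, sup_le inf_le_left hWU, t₁, t₂, fun y hy => ?_⟩
    rw [← SetLike.mem_coe, coe_mul_of_left_le_normalizer_right _ _ hUX] at hy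
    obtain ⟨u, hu, w, hw, rfl⟩ := hy
    have hm : ∀ a : G, a ∈ U' → a ∈ W → a ∈ (U' ⊓ W) ⊔ W' := fun a h1 h2 => mem_sup_left ⟨h1, h2⟩
    set Y₀ := (U' ⊓ W) ⊔ W'
    have hwY : ∀ a : G, a ∈ W' → a ∈ Y₀ := fun a ha => mem_sup_right ha
    have hcj : ∀ {a : G}, a ∈ X → ∀ {v : G}, v ∈ W' → a * v * a⁻¹ ∈ W' :=
      fun {a} ha {v} hv => (mem_normalizer_iff.1 (hW' ha) v).1 hv
    refine ⟨?_, fun g hg => ?_⟩
    · rw [show z * (u * w) * z⁻¹ * (u * w) = (z * u * z⁻¹ * u) * (u⁻¹ * (z * w * z⁻¹) * u⁻¹⁻¹ * w) by group]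
      exact Y₀.mul_mem (hm _ (U'.mul_mem ((mem_normalizer_iff.1 (hU' T.hzX) u).1 hu.1) hu.1) (P.neg u hu.2))
        (hwY _ (W'.mul_mem (hcj (inv_mem (T.hRX (hU hu.2))) (hcj T.hzX hw)) hw))
    · have hgX : g ∈ X := T.hJX hg
      have hgu : ∀ {a}, a ∈ U' → ⁅g, a⁆ ∈ U' := fun {a} ha => by
        rw [commutatorElement_def]
        exact U'.mul_mem ((mem_normalizer_iff.1 (hU' hgX) a).1 ha) (U'.inv_mem ha)
      have e1 : ⁅g, u * w⁆ = ⁅g, u⁆ * (u * ⁅g, w⁆ * u⁻¹) := by simp only [commutatorElement_def]; group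
      set a := ⁅g, u⁆
      set d := u * ⁅g, w⁆ * u⁻¹
      have hd : d ∈ W' := hcj (T.hRX (hU hu.2)) (by
        rw [commutatorElement_def]; exact W'.mul_mem (hcj hgX hw) (W'.inv_mem hw))
      have haX : a ∈ X := T.hRX (hUR (hgu hu.1))
      rw [e1, show ⁅g, a * d⁆ = ⁅g, a⁆ * (a * ⁅g, d⁆ * a⁻¹) by simp only [commutatorElement_def]; group]
      refine Y₀.mul_mem (hm _ (hgu (hgu hu.1)) (P.quad g hg u hu.2)) (hwY _ (hcj haX ?_))
      rw [commutatorElement_def]; exact W'.mul_mem (hcj hgX hd) (W'.inv_mem hd)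
  rcases hV12 with ⟨hV1, -⟩ | ⟨hV2, -⟩
  · have hc2 : Covers U' U₂ W₂ ∧ ¬ Covers W' U₂ W₂ := by
      by_contra hno
      refine ht (T.triv_of_covers hWU hUR hW' hU' (fun _ => hV1.mono hVW) fun h => ?_)
      by_contra h'; exact hno ⟨h, h'⟩
    exact hpick T.p2 T.h2R hc2.1 hc2.2 fun Y Y₀ h1 h2 h3 hY hY₀ hcY hnY₀ =>
      ⟨T.triv_of_covers h1 (h2.trans (h3.trans hUR)) hW' hY₀ (fun _ => hV1.mono hVW) fun h => absurd h hnY₀,
        T.triv_of_covers h3 hUR hY hU' (fun _ => hV1.mono (hVW.trans (h1.trans h2))) fun _ => hcY⟩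
  · have hc1 : Covers U' U₁ W₁ ∧ ¬ Covers W' U₁ W₁ := by
      by_contra hno
      refine ht (T.triv_of_covers hWU hUR hW' hU' (fun h => ?_) fun _ => hV2.mono hVW)
      by_contra h'; exact hno ⟨h, h'⟩
    exact hpick T.p1 (T.h12.trans (T.p2.hWU.trans T.h2R)) hc1.1 hc1.2 fun Y Y₀ h1 h2 h3 hY hY₀ hcY hnY₀ =>
      ⟨T.triv_of_covers h1 (h2.trans (h3.trans hUR)) hW' hY₀ (fun h => absurd h hnY₀) fun _ => hV2.mono hVW,
        T.triv_of_covers h3 hUR hY hU' (fun _ => hcY) fun _ => hV2.mono (hVW.trans (h1.trans h2))⟩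

end Cfsg.Agent.H73.Focal
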