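import Cfsg.Agent.H73.Focal.XData
import Cfsg.Agent.H73.Focal.Alg
import Cfsg.Agent.H61.Orbit
import Mathlib

/-! An element quadratic on every chief factor in `O_p(G)`. -/

set_option autoImplicit false
set_option linter.style.haveILetI false
set_option maxHeartbeats 1000000

namespace Cfsg.Agent.H73.Focal

open Subgroup
open scoped commutatorElement

universe u

variable {G : Type u} [Group G] [Finite G] {p : ℕ} [Fact p.Prime]

omit [Finite G] in
theorem comm_comm_eq_one {a b : G} (h : ⁅b, ⁅b, a⁆⁆ = 1) : ⁅⁅a, b⁆, b⁆ = 1 := by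
  rw [commutatorElement_eq_one_iff_mul_comm] at h ⊢
  have e : Commute b ⁅b, a⁆ := h
  rw [← commutatorElement_inv b a]
  exact e.inv_right.symm

/-- The chief factors above `V`. -/
theorem quad_above {S : Sylow p G} {V X J R U₁ W₁ U₂ W₂ : Subgroup G} {u z : G} {F : Type} [Field F]
    (hp2 : p ≠ 2) (L : LData p S V X J u F) (D : XData p S X J z R U₁ W₁ U₂ W₂)
    (hVn : V.Normal) (hnt : ¬ Triv p X ⊥ V) {U W : Subgroup G} (hch : Cfsg.IsChiefFactor U W)
    (hUQ : U ≤ Cfsg.pCore p G) (hVW : V ≤ W) : QuadMod u U W := by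
  classical
  haveI := H19.pCore_normal p G
  obtain ⟨hlt, hUn, hWn, hirr⟩ := hch
  haveI := hUn; haveI := hWn
  set Q := Cfsg.pCore p G
  have hQp : IsPGroup p Q := H19.pCore_isPGroup p
  have hUX : X ≤ normalizer ((U ⊓ X : Subgroup G) : Set G) := fun g hg => by
    rw [mem_normalizer_iff_map_conj_eq, Subgroup.map_inf _ _ _ (MulAut.conj g).injective,
      mem_normalizer_iff_map_conj_eq.1 ((normalizer_eq_top_iff.2 hUn).ge (mem_top g)),
      mem_normalizer_iff_map_conj_eq.1 (le_normalizer hg)]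
  have hWX : X ≤ normalizer ((W ⊓ X : Subgroup G) : Set G) := fun g hg => by
    rw [mem_normalizer_iff_map_conj_eq, Subgroup.map_inf _ _ _ (MulAut.conj g).injective,
      mem_normalizer_iff_map_conj_eq.1 ((normalizer_eq_top_iff.2 hWn).ge (mem_top g)),
      mem_normalizer_iff_map_conj_eq.1 (le_normalizer hg)]
  set U' := U ⊓ X
  set W' := W ⊓ X
  have hVX : X ≤ normalizer (V : Set G) := le_top.trans (normalizer_eq_top_iff.2 hVn).ge
  obtain ⟨Y, Y₀, hcase⟩ := D.layers.exists_natural hVX hWX hUX (le_inf hVW (L.hVJ.trans L.syl.le))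
    (inf_le_inf_right _ hlt.le) ((inf_le_inf_right _ hUQ).trans D.hQR) hnt
  have hzX := D.layers.hzX
  have hJX := D.layers.hJX
  obtain ⟨Y, Y₀, hWY₀, hY₀Y, hYU, ht1, ht2, hnq⟩ : ∃ Y Y₀ : Subgroup G, W' ≤ Y₀ ∧ Y₀ ≤ Y ∧ Y ≤ U' ∧
      Triv p X W' Y₀ ∧ Triv p X Y U' ∧ ∀ y ∈ Y, z * y * z⁻¹ * y ∈ Y₀ ∧ ∀ g ∈ J, ⁅g, ⁅g, y⁆⁆ ∈ Y₀ := by
    rcases hcase with hc | ht
    · exact ⟨Y, Y₀, hc⟩
    · have hW : ∀ {g : G}, g ∈ X → ∀ {y : G}, y ∈ W' → g * y * g⁻¹ ∈ W' :=
        fun {g} hg {y} hy => (mem_normalizer_iff.1 (hWX hg) y).1 hy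
      refine ⟨W', W', le_rfl, le_rfl, inf_le_inf_right _ hlt.le, fun x hx _ y hy => ?_, ht,
        fun y hy => ⟨W'.mul_mem (hW hzX hy) hy, fun g hg => ?_⟩⟩
      · rw [commutatorElement_def]; exact W'.mul_mem (hW hx hy) (W'.inv_mem hy)
      · have h1 : ∀ b ∈ W', ⁅g, b⁆ ∈ W' := fun b hb => by
          rw [commutatorElement_def]; exact W'.mul_mem (hW (hJX hg) hb) (W'.inv_mem hb)
        exact h1 _ (h1 y hy)
  -- the module
  set π := QuotientGroup.mk' W
  set Ub := U.map π
  haveI : Ub.Normal := hUn.map π (QuotientGroup.mk'_surjective W)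
  have hUc : ∀ a ∈ U, ∀ b ∈ U, ⁅a, b⁆ ∈ W := fun a ha b hb =>
    H61.chief_commutator_le hQp ⟨hlt, hUn, hWn, hirr⟩ hUQ (commutator_mem_commutator ha (hUQ hb))
  haveI : IsMulCommutative Ub := ⟨⟨by
    rintro ⟨_, a, ha, rfl⟩ ⟨_, b, hb, rfl⟩
    refine Subtype.ext (commutatorElement_eq_one_iff_mul_comm.1 ?_)
    rw [← map_commutatorElement]
    exact (QuotientGroup.eq_one_iff _).2 (hUc a ha b hb)⟩⟩
  open scoped IsMulCommutative in
  let iC : CommGroup ↥Ub := inferInstance
  let ρ : G →* AddMonoid.End (Additive ↥Ub) :=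
    { toFun := fun g => MonoidHom.toAdditive (MulAut.conjNormal (π g) : ↥Ub ≃* ↥Ub).toMonoidHom
      map_one' := by
        refine AddMonoidHom.ext fun a => ?_
        show Additive.ofMul ((MulAut.conjNormal (π 1) : MulAut ↥Ub) (Additive.toMul a)) = a
        simp
      map_mul' := fun g k => by
        refine AddMonoidHom.ext fun a => ?_
        show Additive.ofMul ((MulAut.conjNormal (π (g * k)) : MulAut ↥Ub) (Additive.toMul a)) =
          Additive.ofMul ((MulAut.conjNormal (π g) : MulAut ↥Ub) ((MulAut.conjNormal (π k) : MulAut ↥Ub) (Additive.toMul a)))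
        rw [map_mul, map_mul, MulAut.mul_apply] }
  let val : Additive ↥Ub → G ⧸ W := fun a => ((Additive.toMul a : ↥Ub) : G ⧸ W)
  have hval : ∀ g a, val (ρ g a) = π g * val a * (π g)⁻¹ := fun g a => rfl
  have hvinj : Function.Injective val := fun a b e => Additive.toMul.injective (Subtype.ext e)
  have hvadd : ∀ a b, val (a + b) = val a * val b := fun a b => rfl
  have hvneg : ∀ a, val (-a) = (val a)⁻¹ := fun a => rfl
  have hvsub : ∀ a b, val (a - b) = val a * (val b)⁻¹ := fun a b => by rw [sub_eq_add_neg, hvadd, hvneg]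
  have hdiff : ∀ g a x, π x = val a → val (ρ g a - a) = π ⁅g, x⁆ := fun g a x e => by
    rw [hvsub, hval, ← e, map_commutatorElement, commutatorElement_def]
  let img : Subgroup G → AddSubgroup (Additive ↥Ub) := fun H => ((H.map π).subgroupOf Ub).toAddSubgroup
  have himg : ∀ H a, a ∈ img H ↔ ∃ x ∈ H, π x = val a := fun H a => Iff.rfl
  have hA : ∀ a : Additive ↥Ub, p • a = 0 := by
    intro a
    apply hvinj
    obtain ⟨x, hx, e⟩ := (Additive.toMul a : ↥Ub).2
    show ((Additive.toMul a ^ p : ↥Ub) : G ⧸ W) = 1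
    rw [SubmonoidClass.coe_pow, ← e, ← map_pow]
    exact (QuotientGroup.eq_one_iff _).2 (H61.chief_pow_mem hQp ⟨hlt, hUn, hWn, hirr⟩ hUQ x hx)
  have hl : Layer ρ p (S : Subgroup G) X J z (img U') (img Y) (img Y₀) := by
    refine ⟨S.2, hJX, L.syl.not_dvd, L.hJS, fun s hs g hg => ?_, L.gen, fun a => ?_, fun x hx a => ?_,
      fun x hx a => ?_, fun x hx hxp a ha => ?_, fun x hx hxp a ha => ?_, fun a ha => ?_,
      fun g hg a ha => ?_, fun H hH => ?_⟩
    · have := (mem_normalizer_iff.1 (L.hSJ (inv_mem hs)) g).1 hg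
      rwa [inv_inv] at this
    · rw [rho_mul, D.hz, rho_one]
    · obtain ⟨y, hy, e⟩ := (Additive.toMul a : ↥Ub).2
      have hd := D.hzc x hx
      have hdU : π ⁅y, z * x * z⁻¹ * x⁻¹⁆ = 1 := (QuotientGroup.eq_one_iff _).2
        (H61.chief_commutator_le hQp ⟨hlt, hUn, hWn, hirr⟩ hUQ (commutator_mem_commutator hy hd))
      rw [map_commutatorElement, commutatorElement_eq_one_iff_mul_comm] at hdU
      have hfix : ρ (z * x * z⁻¹ * x⁻¹) a = a := by
        apply hvinj
        rw [hval, show val a = π y from e.symm, ← hdU, mul_inv_cancel_right]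
      rw [rho_mul, rho_mul]
      apply hvinj
      have e2 := congrArg val hfix
      rw [hval, map_mul, map_mul, map_mul, map_inv, map_inv] at e2
      rw [hval, hval, map_mul, map_mul]
      set zz := π z
      set xx := π x
      have hzi : zz⁻¹ = zz := inv_eq_of_mul_eq_one_right (by rw [← map_mul, D.hz, map_one])
      calc zz * xx * val a * (zz * xx)⁻¹ = zz * (xx * val a * xx⁻¹) * zz⁻¹ := by group
        _ = zz * (xx * ((zz * xx * zz⁻¹ * xx⁻¹)⁻¹ * ((zz * xx * zz⁻¹ * xx⁻¹) * val a *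
              (zz * xx * zz⁻¹ * xx⁻¹)⁻¹) * (zz * xx * zz⁻¹ * xx⁻¹)) * xx⁻¹) * zz⁻¹ := by group
        _ = zz * (xx * ((zz * xx * zz⁻¹ * xx⁻¹)⁻¹ * val a * (zz * xx * zz⁻¹ * xx⁻¹)) * xx⁻¹) * zz⁻¹ := by
              rw [e2]
        _ = _ := by
              have hxi : ∀ b : G ⧸ W, b ∈ Ub → ((zz * xx * zz⁻¹ * xx⁻¹)⁻¹ * b * (zz * xx * zz⁻¹ * xx⁻¹)) = b := by
                rintro _ ⟨y', hy', rfl⟩
                have h1 : π ⁅y', z * x * z⁻¹ * x⁻¹⁆ = 1 := (QuotientGroup.eq_one_iff _).2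
                  (H61.chief_commutator_le hQp ⟨hlt, hUn, hWn, hirr⟩ hUQ (commutator_mem_commutator hy' hd))
                rw [map_commutatorElement, commutatorElement_eq_one_iff_mul_comm, map_mul, map_mul, map_mul,
                  map_inv, map_inv] at h1
                rw [mul_assoc, h1, inv_mul_cancel_left]
              have hm : xx * zz * val a * (xx * zz)⁻¹ ∈ Ub :=
                (inferInstance : Ub.Normal).conj_mem _ (Additive.toMul a : ↥Ub).2 _
              rw [hxi _ (Additive.toMul a : ↥Ub).2]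
              have e3 := hxi _ hm
              conv_lhs =>
                rw [show zz * (xx * val a * xx⁻¹) * zz⁻¹ =
                  (zz * xx * zz⁻¹ * xx⁻¹) * ((xx * zz) * val a * (xx * zz)⁻¹) * (zz * xx * zz⁻¹ * xx⁻¹)⁻¹ by group]
              nth_rewrite 1 [← e3]
              group
    · obtain ⟨y, hy, e⟩ := (Additive.toMul a : ↥Ub).2
      refine (himg _ _).2 ⟨⁅x, y⁆, ⟨?_, L.hQX x hx y (hUQ hy)⟩, (hdiff x a y e).symm⟩
      rw [commutatorElement_def]
      exact U.mul_mem (hUn.conj_mem y hy x) (U.inv_mem hy)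
    · obtain ⟨y, hy, e⟩ := (himg _ _).1 ha
      exact (himg _ _).2 ⟨⁅x, y⁆, ht2 x hx hxp y hy, (hdiff x a y e).symm⟩
    · obtain ⟨y, hy, e⟩ := (himg _ _).1 ha
      refine sub_eq_zero.1 (hvinj ?_)
      rw [hdiff x a y e]
      exact (QuotientGroup.eq_one_iff _).2 (ht1 x hx hxp y hy).1
    · obtain ⟨y, hy, e⟩ := (himg _ _).1 ha
      refine (himg _ _).2 ⟨z * y * z⁻¹ * y, (hnq y hy).1, ?_⟩
      rw [hvadd, hval, ← e, map_mul, map_mul, map_mul, map_inv]
    · obtain ⟨y, hy, e⟩ := (himg _ _).1 ha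
      exact (himg _ _).2 ⟨⁅g, ⁅g, y⁆⁆, (hnq y hy).2 g hg, (hdiff g _ _ (hdiff g a y e).symm).symm⟩
    · let K : Subgroup G :=
        { carrier := {x | ∃ a ∈ H, π x = val a}
          one_mem' := ⟨0, zero_mem H, map_one π⟩
          mul_mem' := fun {x y} hx hy => by
            obtain ⟨a, ha, e⟩ := hx
            obtain ⟨b, hb, e'⟩ := hy
            exact ⟨a + b, add_mem ha hb, by rw [map_mul, e, e', hvadd]⟩
          inv_mem' := fun {x} hx => by
            obtain ⟨a, ha, e⟩ := hx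
            exact ⟨-a, neg_mem ha, by rw [map_inv, e, hvneg]⟩ }
      have hKn : K.Normal := ⟨fun x hx g => by
        obtain ⟨a, ha, e⟩ := hx
        exact ⟨ρ g a, hH g a ha, by rw [map_mul, map_mul, map_inv, e, hval]⟩⟩
      have hWK : W ≤ K := fun x hx => ⟨0, zero_mem H, (QuotientGroup.eq_one_iff _).2 hx⟩
      have hKU : K ≤ U := fun x hx => by
        obtain ⟨a, -, e⟩ := hx
        obtain ⟨y, hy, e'⟩ := (Additive.toMul a : ↥Ub).2
        have : y⁻¹ * x ∈ W := QuotientGroup.eq.1 (show (y : G ⧸ W) = (x : G ⧸ W) from e'.trans e.symm)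
        have := U.mul_mem hy (hlt.le this)
        rwa [mul_inv_cancel_left] at this
      rcases hirr K hKn hWK hKU with e | e
      · refine Or.inl (eq_bot_iff.2 fun a ha => AddSubgroup.mem_bot.2 (hvinj ?_))
        obtain ⟨y, hy, e'⟩ := (Additive.toMul a : ↥Ub).2
        have hyK : y ∈ K := ⟨a, ha, e'⟩
        rw [e] at hyK
        exact e'.symm.trans ((QuotientGroup.eq_one_iff _).2 hyK)
      · refine Or.inr (eq_top_iff.2 fun a _ => ?_)
        obtain ⟨y, hy, e'⟩ := (Additive.toMul a : ↥Ub).2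
        have hyK : y ∈ K := e.symm ▸ hy
        obtain ⟨b, hb, e''⟩ := hyK
        rwa [hvinj (e'.symm.trans e'' : val a = val b)]
  have hzp : (orderOf z).Coprime p := Nat.Coprime.coprime_dvd_left
    (orderOf_dvd_of_pow_eq_one (n := 2) (by rw [pow_two, D.hz]))
    ((Nat.coprime_primes Nat.prime_two Fact.out).2 hp2.symm)
  have hquad := hl.quadratic hzX hzp hp2 hA u L.hu
  intro x hx
  let a : Additive ↥Ub := Additive.ofMul ⟨π x, mem_map_of_mem π hx⟩
  have e1 := congrArg val (hquad a)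
  have ea : π x = val a := rfl
  rw [hdiff u a x ea] at e1
  rw [hval, hdiff u a x ea] at e1
  refine (QuotientGroup.eq_one_iff _).1 ?_
  change π ⁅⁅x, u⁆, u⁆ = 1
  rw [map_commutatorElement, map_commutatorElement]
  refine comm_comm_eq_one ?_
  rw [← map_commutatorElement, commutatorElement_def (π u), e1, mul_inv_cancel]

theorem exists_quadratic_element (hp2 : p ≠ 2) {S : Sylow p G} {M : Subgroup G} (h : Hyp p S M) :
    ∃ u ∈ (S : Subgroup G), u ∉ Cfsg.pCore p G ∧
      ∀ U W : Subgroup G, Cfsg.IsChiefFactor U W → U ≤ Cfsg.pCore p G → QuadMod u U W := by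
  classical
  haveI := H19.pCore_normal p G
  set Q := Cfsg.pCore p G
  have hQS : Q ≤ (S : Subgroup G) := IsPGroup.le_sylow_of_normal (H19.pCore_isPGroup p) S
  by_cases hZJ : Cfsg.centerThompsonAOf (S : Subgroup G) ≤ Q
  swap
  · obtain ⟨u, hu, huQ⟩ := SetLike.not_le_iff_exists.1 hZJ
    refine ⟨u, H35.centerThompsonAOf_le _ hu, huQ, fun U W hch hUQ x hx => ?_⟩
    haveI := hch.2.2.1
    have hxn : x ∈ normalizer (Cfsg.centerThompsonAOf (S : Subgroup G) : Set G) :=
      H35.normalizer_le_normalizer_centerThompsonAOf _ (le_normalizer (hQS (hUQ hx)))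
    have hm : ⁅x, u⁆ ∈ Cfsg.centerThompsonAOf (S : Subgroup G) := by
      rw [commutatorElement_def]
      exact mul_mem ((mem_normalizer_iff.1 hxn u).1 hu) (inv_mem hu)
    rw [commutatorElement_eq_one_iff_mul_comm.2 (mem_centralizer_iff.1 hu.2 _ hm.1)]
    exact one_mem W
  obtain ⟨V, X, J, u, F, iF, iF', n, hn, hF, d, L⟩ := exists_local hp2 h.to0 hZJ
  obtain ⟨z, R, U₁, W₁, U₂, W₂, D, hnt⟩ := exists_xdata hp2 h d hn hF L
  refine ⟨u, L.hJS L.hu, fun hu => L.huV (d.QC hu), fun U W hch hUQ x hx => ?_⟩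
  obtain ⟨hlt, hUn, hWn, hirr⟩ := hch
  haveI := hUn; haveI := hWn; haveI := d.Vn
  rcases hirr ((U ⊓ V) ⊔ W) inferInstance le_sup_right (sup_le inf_le_left hlt.le) with e | e
  · have hUVW : U ⊓ V ≤ W := le_sup_left.trans e.le
    have key : ∀ a, a ∈ U → a ∈ W ⊔ V → a ∈ W := by
      intro a haU ha
      rw [← SetLike.mem_coe, normal_mul] at ha
      obtain ⟨w, hw, v, hv, rfl⟩ := ha
      have hvU : v ∈ U := by
        have := U.mul_mem (U.inv_mem (hlt.le hw)) haU
        rwa [inv_mul_cancel_left] at this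
      exact W.mul_mem hw (hUVW ⟨hvU, hv⟩)
    have hch2 : Cfsg.IsChiefFactor (U ⊔ V) (W ⊔ V) := by
      refine ⟨lt_of_le_of_ne (sup_le_sup_right hlt.le _) fun e' => hlt.ne (le_antisymm hlt.le fun a ha =>
        key a ha (e' ▸ mem_sup_left ha)), inferInstance, inferInstance, fun N hN h1 h2 => ?_⟩
      haveI := hN
      have hN' : N ≤ (N ⊓ U) ⊔ V := by
        intro a ha
        have ha' := h2 ha
        rw [← SetLike.mem_coe, normal_mul] at ha'
        obtain ⟨y, hy, v, hv, rfl⟩ := ha'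
        have hvN : v ∈ N := h1 (mem_sup_right hv)
        have hyN : y ∈ N := by
          have := N.mul_mem ha (N.inv_mem hvN)
          rwa [mul_inv_cancel_right] at this
        exact mul_mem (mem_sup_left ⟨hyN, hy⟩) (mem_sup_right hv)
      rcases hirr (N ⊓ U) inferInstance (le_inf (le_sup_left.trans h1) hlt.le) inf_le_right with e2 | e2
      · exact Or.inl (le_antisymm (hN'.trans (e2 ▸ le_rfl)) h1)
      · exact Or.inr (le_antisymm h2 (sup_le (e2.ge.trans inf_le_left) (le_sup_right.trans h1)))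
    have hq := quad_above hp2 L D d.Vn hnt hch2 (sup_le hUQ d.VQ) le_sup_right x (mem_sup_left hx)
    refine key _ ?_ hq
    have h1 : ⁅x, u⁆ ∈ U := commutator_le_left U ⊤ (commutator_mem_commutator hx (mem_top u))
    exact commutator_le_left U ⊤ (commutator_mem_commutator h1 (mem_top u))
  · have hx' : x ∈ (U ⊓ V) ⊔ W := by rw [e]; exact hx
    rw [← SetLike.mem_coe, mul_normal] at hx'
    obtain ⟨v, hv, w, hw, rfl⟩ := hx'
    refine (QuotientGroup.eq_one_iff _).1 ?_
    change QuotientGroup.mk' W ⁅⁅v * w, u⁆, u⁆ = 1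
    rw [map_commutatorElement, map_commutatorElement, map_mul,
      show QuotientGroup.mk' W w = 1 from (QuotientGroup.eq_one_iff _).2 hw, mul_one, ← map_commutatorElement,
      ← map_commutatorElement, comm_comm_eq_one (L.huq v hv.2), map_one]

end Cfsg.Agent.H73.Focal
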