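import Cfsg.Agent.S1998
import Cfsg.Agent.H73.Focal.Main
import Mathlib

/-! The family of all characteristic functors controls transfer for odd primes. -/

set_option autoImplicit false
set_option linter.style.haveILetI false

namespace Cfsg.Agent.H73.Focal

open Subgroup
open scoped commutatorElement

universe u

variable {p : ℕ} [Fact p.Prime]

/-- All isomorphism invariant functors. -/
def allFunctors (p : ℕ) : Set (∀ (Q : Type u) [Group Q], Subgroup Q) := {W | Cfsg.IsCharPFunctor.{u} p W}

theorem allFunctors_nonempty : (allFunctors.{u} p).Nonempty := by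
  refine ⟨fun Q _ => ⊤, fun Q _ _ _ _ => top_ne_bot, fun Q R _ _ _ _ φ => ?_⟩
  exact Subgroup.map_top_of_surjective _ φ.surjective

theorem functor_char {P : Type u} [Group P] [Finite P] (hP : IsPGroup p P)
    {W : ∀ (Q : Type u) [Group Q], Subgroup Q} (hW : W ∈ allFunctors.{u} p) : (W P).Characteristic :=
  Subgroup.characteristic_iff_map_eq.2 fun φ => hW.2 P P hP φ

/-- A characteristic subgroup is the value of a functor. -/
theorem exists_functor {P : Type u} [Group P] (K : Subgroup P) (hK : K ≠ ⊥) (hc : K.Characteristic) :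
    ∃ W ∈ allFunctors.{u} p, W P = K := by
  classical
  let W : ∀ (Q : Type u) [Group Q], Subgroup Q := fun Q _ =>
    if h : Nonempty (P ≃* Q) then K.map h.some.toMonoidHom else ⊤
  have hmap : ∀ {Q : Type u} [Group Q] (e e' : P ≃* Q), K.map e.toMonoidHom = K.map e'.toMonoidHom := by
    intro Q _ e e'
    have h := Subgroup.characteristic_iff_map_eq.1 hc (e.trans e'.symm)
    conv_rhs => rw [← h]
    rw [Subgroup.map_map]
    congr 1
    ext x
    simp
  refine ⟨W, ⟨fun Q _ _ _ hQ => ?_, fun Q R _ _ _ _ φ => ?_⟩, ?_⟩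
  · show (if h : Nonempty (P ≃* Q) then K.map h.some.toMonoidHom else ⊤) ≠ ⊥
    split
    · next h => exact fun e => hK ((Subgroup.map_eq_bot_iff_of_injective _ h.some.injective).1 e)
    · exact top_ne_bot
  · show (if h : Nonempty (P ≃* Q) then K.map h.some.toMonoidHom else ⊤).map φ.toMonoidHom =
      if h : Nonempty (P ≃* R) then K.map h.some.toMonoidHom else ⊤
    by_cases h : Nonempty (P ≃* Q)
    · have h' : Nonempty (P ≃* R) := h.map (·.trans φ)
      rw [dif_pos h, dif_pos h', hmap h'.some (h.some.trans φ), Subgroup.map_map]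
      rfl
    · have h' : ¬ Nonempty (P ≃* R) := fun h' => h (h'.map (·.trans φ.symm))
      rw [dif_neg h, dif_neg h', Subgroup.map_top_of_surjective _ φ.surjective]
  · show (if h : Nonempty (P ≃* P) then K.map h.some.toMonoidHom else ⊤) = K
    rw [dif_pos ⟨MulEquiv.refl P⟩]
    exact Subgroup.characteristic_iff_map_eq.1 hc _

/-- Control of transfer by all characteristic functors. -/
theorem trOK_all (hp2 : p ≠ 2) : ∀ (n : ℕ) (G : Type u) [Group G] [Finite G], Nat.card G = n →
    H61.TrOK p (allFunctors.{u} p) G := by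
  intro n
  induction n using Nat.strong_induction_on with
  | _ n ih =>
    intro G _ _ hn
    have h𝓦 : ∀ W ∈ allFunctors.{u} p, Cfsg.IsCharPFunctor.{u} p W := fun W hW => hW
    by_contra hG
    obtain ⟨S, hfail⟩ : ∃ S : Sylow p G, ¬ H61.TrLe (H61.Wset G (allFunctors.{u} p)) (S : Subgroup G) ⊤ := by
      by_contra hno
      push Not at hno
      exact hG hno
    have hsec : ∀ (K R : Subgroup G) [hR : (R.subgroupOf K).Normal], (K = ⊤ → R ≠ ⊥) →
        Cfsg.FamilyControlsTransferIn p
          ((fun W => Cfsg.inducedFunctor (G := (↥K ⧸ R.subgroupOf K)) W) '' allFunctors.{u} p) ⊤ := by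
      intro K R hR hc
      refine H61.family_of_trOK (ih _ ?_ _ rfl)
      rw [← hn]
      rcases eq_or_ne K ⊤ with hK | hK
      · have hne : R.subgroupOf K ≠ ⊥ := by
          rw [Ne, subgroupOf_eq_bot, disjoint_iff, hK, inf_top_eq]
          exact hc hK
        exact lt_of_lt_of_le (H19.card_quotient_lt _ hne) (card_le_card_group K)
      · exact lt_of_le_of_lt (Nat.card_le_card_of_surjective _ (QuotientGroup.mk'_surjective _))
          (H19.card_lt_of_ne_top K hK)
    have hnf : ¬ Cfsg.FamilyControlsTransferIn p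
        ((fun W => Cfsg.inducedFunctor (G := G) W) '' allFunctors.{u} p) ⊤ :=
      fun h => hfail (H61.trOK_of_family h𝓦 h S)
    obtain ⟨hC, ⟨hM, hmax⟩, -, hbad⟩ := S1998.result S (allFunctors.{u} p) h𝓦 allFunctors_nonempty hsec hnf _ _ rfl rfl
    have hd : ∀ T : Subgroup ↥(S : Subgroup G), T ≠ ⊥ → T.Characteristic →
        ¬ (T.map (S : Subgroup G).subtype).Normal := by
      intro T hT hTc hTn
      obtain ⟨W, hW, hWT⟩ := exists_functor (p := p) T hT hTc
      refine hfail (le_trans ?_ (H61.inf_le_Om (S : Subgroup G) ⊤ (W := Cfsg.inducedFunctor W) ⟨W, hW, rfl⟩))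
      rw [show Cfsg.inducedFunctor W (S : Subgroup G) = T.map (S : Subgroup G).subtype by
        rw [← hWT]; rfl, normalizer_eq_top_iff.2 hTn, inf_top_eq]
    obtain ⟨u, huS, huQ, hq⟩ := exists_quadratic_element hp2 (S := S)
      ⟨hC, hM, hmax, H72.Push.NoChar.of_char hd⟩
    obtain ⟨U, V, hUV, hUQ, hnot⟩ := hbad u huS huQ
    haveI := hUV.2.1
    haveI := hUV.2.2.1
    refine hnot (iterCommutator_le_of_le ?_ (iterCommutator_two_le (hq U V hUV hUQ)))
    have := (Fact.out : p.Prime).two_le
    omega

end Cfsg.Agent.H73.Focal
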