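import Cfsg.Agent.H73.Focal.Offend
import Cfsg.Agent.H73.Focal.Chi
import Cfsg.Agent.S2768
import Mathlib

/-! A local subgroup with a quotient `PSL₂` above `J̃(S)` and not in the maximal subgroup. -/

set_option autoImplicit false
set_option linter.style.haveILetI false
set_option maxHeartbeats 1000000

namespace Cfsg.Agent.H73.Focal

open Subgroup
open Cfsg.Agent.H72 (IsMaxAb)
open scoped commutatorElement Matrix

universe u

variable {G : Type u} [Group G] [Finite G] {p : ℕ} [Fact p.Prime]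

/-- `C_S(Z(J(S)))`. -/
def tilde (S : Subgroup G) : Subgroup G := S ⊓ centralizer (Cfsg.centerThompsonAOf S : Set G)

/-- A local subgroup over a characteristic subgroup `J` of `S`. -/
structure LData (p : ℕ) (S : Sylow p G) (V : Subgroup G) (X J : Subgroup G) (u : G) (F : Type) [Field F] : Prop where
  hJS : J ≤ (S : Subgroup G)
  syl : SylIn p J X
  hSJ : (S : Subgroup G) ≤ normalizer (J : Set G)
  gen : X ⊔ (S : Subgroup G) = ⊤
  hu : u ∈ J
  huV : u ∉ centralizer (V : Set G)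
  huq : ∀ v ∈ V, ⁅u, ⁅u, v⁆⁆ = 1
  hVJ : V ≤ J
  hQJ : Cfsg.pCore p G ⊓ X ≤ J
  hQX : ∀ x ∈ X, ∀ q ∈ Cfsg.pCore p G, ⁅x, q⁆ ∈ X
  uniq : ∃ N : Subgroup G, J ≤ N ∧ N ≤ X ∧ N ≠ X ∧ ∀ Y : Subgroup G, J ≤ Y → Y ≤ X → Y ≠ X → Y ≤ N
  hnc : H72.Push.NoChar (S : Subgroup G) → ∀ T ≤ J, (∀ β : J ≃* J, ∀ x : J, (x : G) ∈ T → (β x : G) ∈ T) → X ≤ normalizer (T : Set G) → T = ⊥
  hJeq : J = tilde (S : Subgroup G)
  hmaxX : ∀ M' : Subgroup G, M' ≠ ⊤ → (∀ H : Subgroup G, (S : Subgroup G) ≤ H → H ≠ ⊤ → H ≤ M') →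
    ∀ Y : Subgroup G, J ≤ Y → Y ≤ X → Y ≠ X → Y ≤ M'
  hcoord : ∃ (r : ℕ) (c : Coord p (S : Subgroup G) V F r) (i : Fin r) (hXL : X ≤ c.Lall),
    X ≤ c.L i ⊔ ((S : Subgroup G) ⊓ c.Lall) ∧
    Function.Surjective ((c.chi i).comp (Subgroup.inclusion hXL)) ∧
    ∀ A : Subgroup G, IsMaxAb (S : Subgroup G) A → A ≤ c.Lall
  hchi : ∃ φ : ↥X →* Matrix.SpecialLinearGroup (Fin 2) F, Function.Surjective φ ∧
    (∀ x : ↥X, (x : G) ∈ centralizer (V : Set G) → φ x = 1) ∧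
    ∀ o z : ↥X, φ o = 1 → z * z = 1 → ⁅(z : G), (o : G)⁆ ∈ centralizer (V : Set G)

variable {S : Sylow p G} {M V : Subgroup G}

theorem tilde_aut (T : Subgroup G) (α : T ≃* T) (x : T) (hx : (x : G) ∈ tilde T) : (α x : G) ∈ tilde T := by
  refine ⟨(α x).2, mem_centralizer_iff.2 fun t ht => ?_⟩
  have htS : t ∈ T := H35.centerThompsonAOf_le T ht
  set y : T := α.symm ⟨t, htS⟩ with hy
  have hyJ : (y : G) ∈ Cfsg.centerThompsonAOf T := H72.Push.autInv_thompson T α.symm ⟨t, htS⟩ ht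
  have h1 : y * x = x * y := Subtype.ext (mem_centralizer_iff.1 hx.2 y hyJ)
  have h2 := congrArg (fun z : T => ((α z : T) : G)) h1
  simp only [map_mul, hy, MulEquiv.apply_symm_apply, Subgroup.coe_mul] at h2
  exact h2

theorem tilde_normalizer (T : Subgroup G) : normalizer (T : Set G) ≤ normalizer (tilde T : Set G) := fun g hg => by
  have h1 := mem_normalizer_iff_map_conj_eq.1 (H35.normalizer_le_normalizer_centerThompsonAOf T hg)
  rw [mem_normalizer_iff_map_conj_eq, tilde, Subgroup.map_inf _ _ _ (MulAut.conj g).injective,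
    mem_normalizer_iff_map_conj_eq.1 hg]
  congr 1
  exact (H34.map_centralizer (MulAut.conj g) _).trans (congrArg (fun H : Subgroup G => centralizer (H : Set G)) h1)

theorem exists_local (hp2 : p ≠ 2) (h : Hyp0 p S M)
    (hZJ : Cfsg.centerThompsonAOf (S : Subgroup G) ≤ Cfsg.pCore p G) :
    ∃ (V X J : Subgroup G) (u : G) (F : Type) (_ : Field F) (_ : Fintype F) (n : ℕ),
      1 ≤ n ∧ Fintype.card F = p ^ n ∧ VData p S V ∧ LData p S V X J u F := by
  classical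
  obtain ⟨V, d⟩ := exists_V h
  haveI := d.Vn
  haveI := H19.pCore_normal p G
  set S₁ : Subgroup G := (S : Subgroup G) with hS₁
  set Q := Cfsg.pCore p G
  have hQS : Q ≤ S₁ := IsPGroup.le_sylow_of_normal (H19.pCore_isPGroup p) S
  obtain ⟨A, hA, hAn⟩ := exists_maxAb_not_le h d
  obtain ⟨B, hBA, hBe, hBn, hBq, hBl⟩ := exists_quadratic d hA hAn
  obtain ⟨z₀, hz₀V, hz₀S, hz₀⟩ := d.hz
  obtain ⟨r, F, iF, iF', n, hn, hcard, ⟨c⟩⟩ := exists_coord hp2 S V d.comm d.expV M h.hM h.hmax d.CS d.op1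
    hz₀V hz₀S hz₀ (hBA.trans hA.1) (fun a ha b hb => by
      rw [commutatorElement_eq_one_iff_mul_comm.2 (hA.2.1 a (hBA ha) b (hBA hb)).eq]; exact one_mem _)
    hBe hBn hBl
  haveI : CharP F p := H72.charP_of_card hcard
  haveI := c.Lall_normal
  -- all abelian subgroups of largest order lie in the product
  have hall : ∀ A', IsMaxAb S₁ A' → A' ≤ c.Lall := fun A' hA' =>
    c.le_Lall_of_offender hp2 hA'.1 (fun a ha b hb => (hA'.2.1 a ha b hb).eq) (d.maxAb_offNum hA')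
      (d.VQ.trans hQS)
  set S₀ := S₁ ⊓ c.Lall
  have hJS₀ : Cfsg.thompsonSubgroupAOf S₁ ≤ S₀ := by
    rw [H72.thompsonSubgroupAOf_eq]
    exact sSup_le fun A' hA' => le_inf hA'.1 (hall A' hA')
  set J := tilde S₁
  have hJS₁ : J ≤ S₁ := inf_le_left
  have hJL : J ≤ c.Lall := fun s hs => c.mem_Lall_of_centralizes_fixed hp2 hs.1 fun v hv hfix => by
    refine (mem_centralizer_iff.1 hs.2 v ?_).symm
    have hcJ : ∀ t ∈ Cfsg.thompsonSubgroupAOf S₁, t * v = v * t := fun t ht => hfix t (hJS₀ ht)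
    refine ⟨?_, mem_centralizer_iff.2 fun t ht => hcJ t ht⟩
    exact hA.le_thompson (IsMaxAb.mem hA (hQS (d.VQ hv)) fun a ha => hcJ a (hA.le_thompson ha))
  have hJeq : tilde S₀ = J := by
    have e1 : Cfsg.centerThompsonAOf S₀ = Cfsg.centerThompsonAOf S₁ := by
      rw [Cfsg.centerThompsonAOf, Cfsg.centerThompsonAOf, H72.thompsonSubgroupAOf_eq_of_le inf_le_left hJS₀]
    show S₀ ⊓ centralizer (Cfsg.centerThompsonAOf S₀ : Set G) = J
    rw [e1]
    exact le_antisymm (inf_le_inf_right _ inf_le_left) (le_inf (le_inf inf_le_left hJL) inf_le_right)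
  have hsylL : SylIn p S₀ c.Lall := sylIn_inf S c.Lall
  have hSJ : S₁ ≤ normalizer (J : Set G) := le_normalizer.trans (tilde_normalizer S₁)
  have hQC : Q ≤ centralizer (V : Set G) := d.QC
  have hQS₀ : Q ≤ S₀ := le_inf hQS (hQC.trans c.C_le_Lall)
  have hVJ : V ≤ J := le_inf (d.VQ.trans hQS)
    (le_centralizer_iff.1 ((hZJ.trans hQC)))
  have hAJ : A ≤ J := le_inf hA.1 fun a ha => mem_centralizer_iff.2 fun t ht =>
    (mem_centralizer_iff.1 ht.2 a (hA.le_thompson ha)).symm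
  obtain ⟨u, huB, huC⟩ := SetLike.not_le_iff_exists.1 hBn
  have hJnle : ¬ J ≤ centralizer (V : Set G) := fun hle => huC (hle (hAJ (hBA huB)))
  have hpQ : ∀ {D : Subgroup G}, IsPGroup p D → normalizer (D : Set G) = ⊤ → D ≤ Q := fun hD hN =>
    H19.le_pCore (normalizer_eq_top_iff.1 hN) hD
  have hNJ : normalizer (J : Set G) ≤ M := h.hmax _ hSJ fun e =>
    hJnle ((hpQ (S.2.to_le inf_le_left) e).trans hQC)
  have hS₀n : S₁ ≤ normalizer (S₀ : Set G) := fun s hs => by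
    rw [mem_normalizer_iff_map_conj_eq, Subgroup.map_inf _ _ _ (MulAut.conj s).injective,
      mem_normalizer_iff_map_conj_eq.1 (le_normalizer hs),
      mem_normalizer_iff_map_conj_eq.1 ((normalizer_eq_top_iff.2 (inferInstance : c.Lall.Normal)).ge (mem_top s))]
  have hNS₀ : normalizer (S₀ : Set G) ≤ M := h.hmax _ hS₀n fun e =>
    hJnle ((le_inf inf_le_left hJL).trans ((hpQ (S.2.to_le inf_le_left) e).trans hQC))
  have hCM : centralizer (V : Set G) ≤ M := le_sup_left.trans (h.hmax _ le_sup_right d.CS)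
  have hSM : S₁ ≤ M := le_sup_right.trans (h.hmax _ le_sup_right d.CS)
  -- a component outside `M`
  obtain ⟨i, hiM⟩ : ∃ i, ¬ c.L i ≤ M := by
    by_contra hno
    push Not at hno
    exact h.hM (top_le_iff.1 (c.gen ▸ sup_le (iSup_le hno) hSM))
  set G₀ := c.L i ⊔ S₀
  have hG₀L : G₀ ≤ c.Lall := sup_le (c.L_le i) inf_le_right
  have hG₀M : ¬ G₀ ≤ M := fun hle => hiM (le_sup_left.trans hle)
  obtain ⟨U, hU⟩ := c.exists_sylow_image i hsylL le_rfl fun m => by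
    obtain ⟨g, e⟩ := c.chi_surjective i m
    exact ⟨g, g.2, e⟩
  set R := centralizer (V : Set G) ⊔ S₀
  have hRM : R ≤ M := sup_le hCM (inf_le_left.trans hSM)
  have hRL : R ≤ c.Lall := sup_le c.C_le_Lall inf_le_right
  have hsylR : SylIn p S₀ R := hsylL.of_le le_sup_right hRL
  obtain ⟨U', hU'⟩ := c.exists_sylow_image i (hsylL.inf (c.L_le i) (c.Lall_le_normalizer_L i)) (c.L_le i)
    fun m => by
      obtain ⟨g, hg, e⟩ := c.act_surj i m
      exact ⟨g, hg, c.chi_eq _ e⟩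
  have hUU' : (U' : Subgroup (Matrix.SpecialLinearGroup (Fin 2) F)) = U :=
    (U'.is_maximal' U.2 (by rw [hU, hU']; exact map_mono fun x hx => hx.1)).symm
  have hpre : ∀ g, ∀ hg : g ∈ G₀, c.chi i ⟨g, hG₀L hg⟩ ∈ U → g ∈ R := by
    intro g hg hgU
    have hg' : g ∈ c.L i ⊔ S₀ := hg
    rw [← SetLike.mem_coe, coe_mul_of_right_le_normalizer_left _ _
      ((inf_le_right : S₀ ≤ c.Lall).trans (c.Lall_le_normalizer_L i))] at hg'
    obtain ⟨l, hl, s, hs, e⟩ := hg'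
    have hlU : c.chi i ⟨l, c.L_le i hl⟩ ∈ (U' : Subgroup (Matrix.SpecialLinearGroup (Fin 2) F)) := by
      rw [hUU']
      have hsU : c.chi i ⟨s, hs.2⟩ ∈ U := by
        show _ ∈ (U : Subgroup (Matrix.SpecialLinearGroup (Fin 2) F))
        rw [hU]; exact ⟨⟨s, hs.2⟩, hs, rfl⟩
      have e2 : (⟨l, c.L_le i hl⟩ : ↥c.Lall) = ⟨g, hG₀L hg⟩ * ⟨s, hs.2⟩⁻¹ :=
        Subtype.ext (by simp [← e])
      rw [e2, map_mul, map_inv]
      exact mul_mem hgU (inv_mem hsU)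
    rw [hU'] at hlU
    obtain ⟨t, ht, et⟩ := hlU
    have htL : (t : G) ∈ c.L i := ht.2
    have hd : ((t⁻¹ * ⟨l, c.L_le i hl⟩ : ↥c.Lall) : G) ∈ centralizer (V : Set G) := c.mem_C_of_chi fun j => by
      by_cases hj : j = i
      · subst hj; rw [map_mul, map_inv, et, inv_mul_cancel]
      · rw [map_mul, map_inv, c.chi_cross (Ne.symm hj) hl, show t = ⟨(t : G), c.L_le i htL⟩ from rfl,
          c.chi_cross (Ne.symm hj) htL]
        group
    have h2 : l ∈ R := by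
      have := mul_mem (mem_sup_right ht.1 : (t : G) ∈ R) (mem_sup_left hd : _ ∈ R)
      simpa using this
    rw [← e]
    exact mul_mem h2 (mem_sup_right hs)
  -- subgroups outside `M` map onto `SL₂`
  have hfull : ∀ H : Subgroup G, ∀ hH : H ≤ G₀, ¬ H ≤ M →
      (U : Subgroup (Matrix.SpecialLinearGroup (Fin 2) F)) ≤ (H.subgroupOf c.Lall).map (c.chi i) →
      (H.subgroupOf c.Lall).map (c.chi i) = ⊤ := by
    intro H hH hHM hUH
    by_contra hne
    have hle := le_normalizer_of_sylow_le U hUH hne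
    refine hHM fun g hg => ?_
    have hgL := hG₀L (hH hg)
    have hgN := hle ⟨⟨g, hgL⟩, hg, rfl⟩
    have hgR : g ∈ normalizer (R : Set G) := by
      refine mem_normalizer_iff_map_conj_eq.2 (eq_of_le_of_card_ge ?_
        (card_map_of_injective (MulAut.conj g).injective).ge)
      rw [Subgroup.map_sup]
      refine sup_le (le_trans (le_of_eq (mem_normalizer_iff_map_conj_eq.1
        ((normalizer_eq_top_iff.2 (inferInstance : (centralizer (V : Set G)).Normal)).ge (mem_top g))))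
        le_sup_left) ?_
      rintro _ ⟨s, hs, rfl⟩
      refine hpre _ (G₀.mul_mem (G₀.mul_mem (hH hg) (mem_sup_right hs)) (G₀.inv_mem (hH hg))) ?_
      show c.chi i (⟨g, hgL⟩ * ⟨s, hs.2⟩ * ⟨g, hgL⟩⁻¹) ∈ U
      rw [map_mul, map_mul, map_inv]
      exact (mem_normalizer_iff.1 hgN _).1 (by
        show _ ∈ (U : Subgroup (Matrix.SpecialLinearGroup (Fin 2) F))
        rw [hU]; exact ⟨⟨s, hs.2⟩, hs, rfl⟩)
    exact sup_le hRM hNS₀ (hsylR.frattini hgR)
  have hmem : ∀ {H : Subgroup G}, (hH : H ≤ c.Lall) → (H.subgroupOf c.Lall).map (c.chi i) = ⊤ →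
      ∀ m, ∃ g, ∃ hg : g ∈ H, c.chi i ⟨g, hH hg⟩ = m := by
    intro H hH e m
    obtain ⟨x, hx, rfl⟩ := (e.ge (mem_top m) : m ∈ (H.subgroupOf c.Lall).map (c.chi i))
    exact ⟨x, hx, rfl⟩
  -- the subgroup `G₁`
  obtain ⟨G₁, ⟨hS₀G₁, hG₁G₀, hG₁M⟩, hmin₁⟩ := Set.exists_min_image
    {H : Subgroup G | S₀ ≤ H ∧ H ≤ G₀ ∧ ¬ H ≤ M} (fun H => Nat.card H) (Set.toFinite _)
    ⟨G₀, le_sup_right, le_rfl, hG₀M⟩
  have hG₁L : G₁ ≤ c.Lall := hG₁G₀.trans hG₀L
  have hmax₁ : ∀ Y : Subgroup G, S₀ ≤ Y → Y ≤ G₁ → Y ≠ G₁ → Y ≤ M := fun Y h1 h2 hne => by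
    by_contra hYM
    exact hne (eq_of_le_of_card_ge h2 (hmin₁ Y ⟨h1, h2.trans hG₁G₀, hYM⟩))
  have htop₁ : (G₁.subgroupOf c.Lall).map (c.chi i) = ⊤ :=
    hfull G₁ hG₁G₀ hG₁M (by rw [hU]; exact map_mono fun x hx => hS₀G₁ hx)
  obtain ⟨T₁, hT₁, hT₁'⟩ := (hsylL.of_le hS₀G₁ hG₁L).exists_sylow
  let f₁ : ↥G₁ →* Matrix.ProjectiveSpecialLinearGroup (Fin 2) F :=
    (QuotientGroup.mk' (Subgroup.center _)).comp ((c.chi i).comp (Subgroup.inclusion hG₁L))
  have hf₁ : Function.Surjective f₁ := (QuotientGroup.mk'_surjective _).comp fun m => by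
    obtain ⟨g, hg, e⟩ := hmem hG₁L htop₁ m
    exact ⟨⟨g, hg⟩, e⟩
  have hQG₁ : Q ≤ G₁ := hQS₀.trans hS₀G₁
  have hE₁ : centralizer (Cfsg.pCore p ↥G₁ : Set ↥G₁) ≤ Cfsg.pCore p ↥G₁ := by
    have hQ' : Q.subgroupOf G₁ ≤ Cfsg.pCore p ↥G₁ := H19.le_pCore inferInstance
      ((H19.pCore_isPGroup p).of_equiv (subgroupOfEquivOfLe hQG₁).symm)
    intro g hg
    refine hQ' ?_
    show (g : G) ∈ Q
    refine h.hC (mem_centralizer_iff.2 fun q hq => ?_)
    exact congrArg Subtype.val (mem_centralizer_iff.1 hg ⟨q, hQG₁ hq⟩ (hQ' hq))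
  have hE₂ : ∃! N : Subgroup ↥G₁, IsCoatom N ∧ (T₁ : Subgroup ↥G₁) ≤ N := by
    have hne : M.subgroupOf G₁ ≠ ⊤ := fun e => hG₁M (subgroupOf_eq_top.1 e)
    have hle : (T₁ : Subgroup ↥G₁) ≤ M.subgroupOf G₁ := by
      rw [hT₁']; exact fun x hx => hSM hx.1
    have key : ∀ N : Subgroup ↥G₁, (T₁ : Subgroup ↥G₁) ≤ N → N ≠ ⊤ → N ≤ M.subgroupOf G₁ := by
      intro N hN hNt x hx
      refine hmax₁ (N.map G₁.subtype) (hT₁ ▸ map_mono hN) (map_subtype_le N) (fun e => hNt ?_)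
        (mem_map_of_mem _ hx)
      exact map_injective G₁.subtype_injective (e.trans (by rw [← MonoidHom.range_eq_map, range_subtype]))
    refine ⟨M.subgroupOf G₁, ⟨⟨hne, fun N hN => ?_⟩, hle⟩, fun N ⟨hN, hTN⟩ => ?_⟩
    · by_contra hNt
      exact hN.not_ge (key N (hle.trans hN.le) hNt)
    · exact (hN.le_iff.1 (key N hTN hN.1)).resolve_left hne |>.symm
  have hZ : ¬ ((T₁ : Subgroup ↥G₁) ⊓ centralizer ((T₁ : Subgroup ↥G₁) : Set ↥G₁)).Normal := by
    intro hnorm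
    set Z₁ := S₀ ⊓ centralizer (S₀ : Set G)
    have hNZ : S₁ ≤ normalizer (Z₁ : Set G) := fun s hs => by
      rw [mem_normalizer_iff_map_conj_eq, Subgroup.map_inf _ _ _ (MulAut.conj s).injective,
        mem_normalizer_iff_map_conj_eq.1 (hS₀n hs)]
      congr 1
      exact (H34.map_centralizer (MulAut.conj s) _).trans
        (congrArg (fun H : Subgroup G => centralizer (H : Set G)) (mem_normalizer_iff_map_conj_eq.1 (hS₀n hs)))
    have hZG₁ : ∀ g ∈ G₁, ∀ x ∈ Z₁, g * x * g⁻¹ ∈ Z₁ := by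
      intro g hg x hx
      have hxm : (⟨x, hS₀G₁ hx.1⟩ : ↥G₁) ∈
          (T₁ : Subgroup ↥G₁) ⊓ centralizer ((T₁ : Subgroup ↥G₁) : Set ↥G₁) := by
        rw [hT₁']
        exact ⟨hx.1, mem_centralizer_iff.2 fun y hy => Subtype.ext (mem_centralizer_iff.1 hx.2 y hy)⟩
      have := hnorm.conj_mem _ hxm ⟨g, hg⟩
      rw [hT₁'] at this
      exact ⟨this.1, mem_centralizer_iff.2 fun y hy =>
        congrArg Subtype.val (mem_centralizer_iff.1 this.2 ⟨y, hS₀G₁ hy⟩ hy)⟩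
    have hNtop : normalizer (Z₁ : Set G) = ⊤ := by
      by_contra hne
      refine hG₁M fun g hg => h.hmax _ hNZ hne ?_
      exact mem_normalizer_iff_map_conj_eq.2 (eq_of_le_of_card_ge (by
        rintro _ ⟨x, hx, rfl⟩; exact hZG₁ g hg x hx) (card_map_of_injective (MulAut.conj g).injective).ge)
    haveI := normalizer_eq_top_iff.1 hNtop
    have hVZ : V ≤ Z₁ := d.gen.trans (normalClosure_le_normal fun x hx =>
      ⟨hQS₀ (d.VQ hx.1), centralizer_le (SetLike.coe_subset_coe.2 inf_le_left) hx.2⟩)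
    exact hJnle ((le_inf inf_le_left hJL).trans (le_centralizer_iff.1 (hVZ.trans inf_le_right)))
  obtain ⟨P₁, hP₁⟩ := S2768.result T₁ hE₁ hE₂ f₁.ker F n hn hcard
    ⟨QuotientGroup.quotientKerEquivOfSurjective f₁ hf₁⟩ hZ
  set Jh : Subgroup ↥G₁ := (T₁ : Subgroup ↥G₁) ⊓
    centralizer (Cfsg.centerThompsonAOf (T₁ : Subgroup ↥G₁) : Set ↥G₁)
  set Nh : Subgroup ↥G₁ := normalClosure (Jh : Set ↥G₁)
  haveI : Nh.Normal := normalClosure_normal
  have hJh : Jh.map G₁.subtype = J := by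
    rw [← hJeq]
    have e : (Cfsg.centerThompsonAOf (T₁ : Subgroup ↥G₁)).map G₁.subtype = Cfsg.centerThompsonAOf S₀ := by
      rw [H35.map_centerThompsonAOf _ _ G₁.subtype_injective.injOn, hT₁]
    ext x
    constructor
    · rintro ⟨y, ⟨hy1, hy2⟩, rfl⟩
      refine ⟨hT₁ ▸ mem_map_of_mem _ hy1, mem_centralizer_iff.2 fun t ht => ?_⟩
      rw [← e] at ht
      obtain ⟨w, hw, rfl⟩ := ht
      exact congrArg Subtype.val (mem_centralizer_iff.1 hy2 w hw)
    · rintro ⟨hx1, hx2⟩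
      refine ⟨⟨x, hS₀G₁ hx1⟩, ⟨by rw [hT₁']; exact hx1, mem_centralizer_iff.2 fun w hw => Subtype.ext ?_⟩, rfl⟩
      exact mem_centralizer_iff.1 hx2 _ (e ▸ mem_map_of_mem _ hw)
  set G₁' := Nh.map G₁.subtype
  have hJG₁' : J ≤ G₁' := hJh ▸ map_mono (le_normalClosure : Jh ≤ Nh)
  have hG₁'G₁ : G₁' ≤ G₁ := map_subtype_le Nh
  have hnorm₁ : G₁ ≤ normalizer (G₁' : Set G) := fun g hg => by
    refine mem_normalizer_iff_map_conj_eq.2 (eq_of_le_of_card_ge ?_
      (card_map_of_injective (MulAut.conj g).injective).ge)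
    rintro _ ⟨_, ⟨y, hy, rfl⟩, rfl⟩
    exact ⟨⟨g, hg⟩ * y * ⟨g, hg⟩⁻¹, (inferInstance : Nh.Normal).conj_mem y hy _, rfl⟩
  have hsyl₁ : SylIn p J G₁' := by
    refine sylIn_of_not_dvd hJG₁' (S.2.to_le inf_le_left) fun hd => P₁.not_dvd_index ?_
    rw [hP₁]
    show p ∣ Jh.relIndex Nh
    rwa [← relIndex_map_map_of_injective Jh Nh G₁.subtype_injective, hJh]
  have hG₁'M : ¬ G₁' ≤ M := fun hle => hG₁M fun g hg =>
    sup_le hle hNJ (hsyl₁.frattini (hnorm₁ hg))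
  have htop₁' : (G₁'.subgroupOf c.Lall).map (c.chi i) = ⊤ := by
    set D := (G₁'.subgroupOf c.Lall).map (c.chi i)
    haveI hDn : D.Normal := by
      refine ⟨fun m hm m' => ?_⟩
      obtain ⟨x, hx, rfl⟩ := hm
      obtain ⟨g, hg, rfl⟩ := hmem hG₁L htop₁ m'
      exact ⟨⟨g, hG₁L hg⟩ * x * ⟨g, hG₁L hg⟩⁻¹,
        (mem_normalizer_iff.1 (hnorm₁ hg) x).1 hx, by rw [map_mul, map_mul, map_inv]⟩
    by_cases hex : ∃ y : ↥c.Lall, (y : G) ∈ J ∧ c.chi i y ≠ 1
    · obtain ⟨y, hy, hy1⟩ := hex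
      obtain ⟨k, hk⟩ := S.2 ⟨y, hJS₁ hy⟩
      refine normal_eq_top (p := p) (k := k) (c.two_ne_zero hp2) ⟨y, hJG₁' hy, rfl⟩ hy1 ?_
      rw [← map_pow, show y ^ p ^ k = 1 from Subtype.ext (congrArg Subtype.val hk :), map_one]
    exfalso
    push Not at hex
    refine hG₁'M fun g hg => hRM (hpre g (hG₁G₀ (hG₁'G₁ hg)) ?_)
    have hker : Nh ≤ ((c.chi i).comp (Subgroup.inclusion hG₁L)).ker := normalClosure_le_normal fun y hy =>
      hex (Subgroup.inclusion hG₁L y) (hJh ▸ mem_map_of_mem G₁.subtype hy)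
    obtain ⟨y, hy, rfl⟩ := hg
    have := MonoidHom.mem_ker.1 (hker hy)
    exact this.symm ▸ one_mem U
  obtain ⟨U₂, hU₂⟩ := c.exists_sylow_image i hsyl₁ (hG₁'G₁.trans hG₁L) (hmem _ htop₁')
  have hUJ : (U : Subgroup (Matrix.SpecialLinearGroup (Fin 2) F)) = (J.subgroupOf c.Lall).map (c.chi i) := by
    rw [← hU₂]
    exact U₂.is_maximal' U.2 (by rw [hU, hU₂]; exact map_mono fun x hx => ⟨hJS₁ hx, x.2⟩)
  -- the subgroup `X`
  obtain ⟨X, ⟨hJX, hXG₁', hXM⟩, hminX⟩ := Set.exists_min_image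
    {H : Subgroup G | J ≤ H ∧ H ≤ G₁' ∧ ¬ H ≤ M} (fun H => Nat.card H) (Set.toFinite _)
    ⟨G₁', hJG₁', le_rfl, hG₁'M⟩
  have hXG₀ : X ≤ G₀ := hXG₁'.trans (hG₁'G₁.trans hG₁G₀)
  have hXL : X ≤ c.Lall := hXG₀.trans hG₀L
  have htopX : (X.subgroupOf c.Lall).map (c.chi i) = ⊤ :=
    hfull X hXG₀ hXM (hUJ ▸ map_mono fun x hx => hJX hx)
  have hgen : X ⊔ S₁ = ⊤ := by
    by_contra hne
    exact hXM (le_sup_left.trans (h.hmax _ le_sup_right hne))
  have hQJ : Q ⊓ X ≤ J := by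
    have hp' : IsPGroup p ↥((Q ⊓ G₁') ⊔ J) := IsPGroup.to_sup_of_normal_left'
      ((H19.pCore_isPGroup p).to_le inf_le_left) (S.2.to_le inf_le_left) fun x hx => by
        rw [mem_normalizer_iff_map_conj_eq, Subgroup.map_inf _ _ _ (MulAut.conj x).injective,
          mem_normalizer_iff_map_conj_eq.1 (le_normalizer (hJG₁' hx)),
          mem_normalizer_iff_map_conj_eq.1 ((normalizer_eq_top_iff.2 (inferInstance : Q.Normal)).ge (mem_top x))]
    have e := hsyl₁.max _ (sup_le inf_le_right hJG₁') hp' le_sup_right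
    exact fun x hx => e ▸ mem_sup_left ⟨hx.1, hXG₁' hx.2⟩
  have hQJ' : ∀ x ∈ X, ∀ q ∈ Q, ⁅x, q⁆ ∈ J := fun x hx q hq => by
    have h1 : ⁅x, q⁆ ∈ G₁' := by
      rw [show ⁅x, q⁆ = x * (q * x⁻¹ * q⁻¹) by simp only [commutatorElement_def]; group]
      exact G₁'.mul_mem (hXG₁' hx) ((mem_normalizer_iff.1 (hnorm₁ (hQG₁ hq)) x⁻¹).1 (inv_mem (hXG₁' hx)))
    have h2 : ⁅x, q⁆ ∈ Q := by
      rw [commutatorElement_def]
      exact Q.mul_mem ((inferInstance : Q.Normal).conj_mem q hq x) (Q.inv_mem hq)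
    have hp' : IsPGroup p ↥((Q ⊓ G₁') ⊔ J) := IsPGroup.to_sup_of_normal_left'
      ((H19.pCore_isPGroup p).to_le inf_le_left) (S.2.to_le inf_le_left) fun x hx => by
        rw [mem_normalizer_iff_map_conj_eq, Subgroup.map_inf _ _ _ (MulAut.conj x).injective,
          mem_normalizer_iff_map_conj_eq.1 (le_normalizer (hJG₁' hx)),
          mem_normalizer_iff_map_conj_eq.1 ((normalizer_eq_top_iff.2 (inferInstance : Q.Normal)).ge (mem_top x))]
    have e := hsyl₁.max _ (sup_le inf_le_right hJG₁') hp' le_sup_right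
    exact e ▸ mem_sup_left ⟨h2, h1⟩
  refine ⟨V, X, J, u, F, iF, iF', n, hn, hcard, d,
    { hJS := inf_le_left
      syl := hsyl₁.of_le hJX hXG₁'
      hSJ := hSJ
      gen := hgen
      hu := hAJ (hBA huB)
      huV := huC
      huq := hBq u huB
      hVJ := hVJ
      hQJ := hQJ
      hQX := fun x hx q hq => hJX (hQJ' x hx q hq)
      uniq := ⟨M ⊓ X, le_inf (inf_le_left.trans hSM) hJX, inf_le_right,
        fun e => hXM (e ▸ inf_le_left), fun Y h1 h2 hne => le_inf (by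
          by_contra hYM
          exact hne (eq_of_le_of_card_ge h2 (hminX Y ⟨h1, h2.trans hXG₁', hYM⟩))) h2⟩
      hnc := ?_
      hJeq := rfl
      hmaxX := fun M' hM' hmax' Y h1 h2 hne => by
        have hMM' : M ≤ M' := hmax' M hSM h.hM
        by_contra hYM
        exact hne (eq_of_le_of_card_ge h2 (hminX Y ⟨h1, h2.trans hXG₁', fun hle => hYM (hle.trans hMM')⟩))
      hcoord := ⟨r, c, i, hXL, hXG₀, fun m => by
        obtain ⟨g, hg, e⟩ := hmem hXL htopX m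
        exact ⟨⟨g, hg⟩, e⟩, hall⟩
      hchi := ?_ }⟩
  · intro hnc T hTJ hT hXT
    refine hnc T (hTJ.trans inf_le_left) (fun α x hx => ?_) ?_
    · let β : J ≃* J :=
        { toFun := fun y => ⟨α ⟨y, hJS₁ y.2⟩, tilde_aut S₁ α _ y.2⟩
          invFun := fun y => ⟨α.symm ⟨y, hJS₁ y.2⟩, tilde_aut S₁ α.symm _ y.2⟩
          left_inv := fun y => Subtype.ext (congrArg (fun z : ↥(S : Subgroup G) => (z : G)) (α.symm_apply_apply ⟨y, hJS₁ y.2⟩))
          right_inv := fun y => Subtype.ext (congrArg (fun z : ↥(S : Subgroup G) => (z : G)) (α.apply_symm_apply ⟨y, hJS₁ y.2⟩))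
          map_mul' := fun a b => Subtype.ext (congrArg (fun z : ↥(S : Subgroup G) => (z : G))
            (map_mul α ⟨(a : G), hJS₁ a.2⟩ ⟨(b : G), hJS₁ b.2⟩)) }
      exact hT β ⟨x, hTJ hx⟩ hx
    · rw [← normalizer_eq_top_iff, ← top_le_iff, ← hgen]
      refine sup_le hXT fun s hs => mem_normalizer_iff_map_conj_eq.2 (eq_of_le_of_card_ge ?_
        (card_map_of_injective (MulAut.conj s).injective).ge)
      rintro _ ⟨y, hy, rfl⟩
      exact hT ((MulAut.conj s).subgroupMap J |>.trans (MulEquiv.subgroupCongr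
        (mem_normalizer_iff_map_conj_eq.1 (hSJ hs)))) ⟨y, hTJ hy⟩ hy
  · refine ⟨(c.chi i).comp (Subgroup.inclusion hXL), fun m => ?_, fun x hx => ?_, fun o z ho hz => ?_⟩
    · obtain ⟨g, hg, e⟩ := hmem hXL htopX m
      exact ⟨⟨g, hg⟩, e⟩
    · exact c.chi_C i hx
    · set z' : ↥c.Lall := Subgroup.inclusion hXL z
      set o' : ↥c.Lall := Subgroup.inclusion hXL o
      have hz' : ∀ j, j ≠ i → c.chi j z' = 1 := by
        intro j hj
        have hzG : (z : G) ∈ c.L i ⊔ S₀ := hXG₀ z.2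
        rw [← SetLike.mem_coe, coe_mul_of_right_le_normalizer_left _ _
          ((inf_le_right : S₀ ≤ c.Lall).trans (c.Lall_le_normalizer_L i))] at hzG
        obtain ⟨l, hl, s, hs, e⟩ := hzG
        have e2 : z' = ⟨l, c.L_le i hl⟩ * ⟨s, hs.2⟩ := Subtype.ext e.symm
        have h2 : c.chi j z' * c.chi j z' = 1 := by
          rw [← map_mul, show z' * z' = 1 from Subtype.ext (congrArg Subtype.val hz :), map_one]
        rw [e2, map_mul, c.chi_cross (Ne.symm hj) hl, one_mul] at h2 ⊢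
        obtain ⟨k, hk⟩ := S.2 ⟨s, hs.1⟩
        refine orderOf_eq_one_iff.1 (Nat.eq_one_of_dvd_coprimes
          (((Nat.coprime_primes Nat.prime_two (Fact.out : p.Prime)).2 hp2.symm).pow_right k)
          (orderOf_dvd_of_pow_eq_one (by rw [pow_two]; exact h2)) (orderOf_dvd_of_pow_eq_one ?_))
        rw [← map_pow, show (⟨s, hs.2⟩ : ↥c.Lall) ^ p ^ k = 1 from Subtype.ext (congrArg Subtype.val hk :),
          map_one]
      exact c.mem_C_of_chi (g := ⁅z', o'⁆) fun j => by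
        by_cases hj : j = i
        · subst hj
          rw [map_commutatorElement, show c.chi j o' = 1 from ho, commutatorElement_one_right]
        · rw [map_commutatorElement, hz' j hj, commutatorElement_one_left]

end Cfsg.Agent.H73.Focal
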