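import Cfsg.Agent.H73.Focal.Coord
import Cfsg.Agent.H34.Conj
import Cfsg.Agent.H34.Para.Ext
import Mathlib

/-! Offenders and centralisers of fixed points lie in the product of the components. -/

set_option autoImplicit false
set_option linter.unusedSectionVars false
set_option maxHeartbeats 1000000

namespace Cfsg.Agent.H73.Focal.Coord

open Subgroup
open Cfsg.Agent.H34.MinOffender
open scoped commutatorElement Matrix

universe u

variable {G : Type u} [Group G] [Finite G] {p : ℕ} {S V : Subgroup G} {F : Type} [Field F] [Fintype F]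
  {r : ℕ} [hp : Fact p.Prime] [CharP F p] (c : Coord p S V F r)
include c

local notation "SL2" => Matrix.SpecialLinearGroup (Fin 2) F
local notation "M2" => Matrix (Fin 2) (Fin 2) F

theorem exists_pow {s : G} (hs : s ∈ S) : ∃ k : ℕ, s ^ p ^ k = 1 := by
  obtain ⟨k, hk⟩ := c.hS ⟨s, hs⟩
  exact ⟨k, congrArg Subtype.val hk⟩

omit [CharP F p] in
/-- Elements of the product commute with the central involutions on `V`. -/
theorem neg_comm {i : Fin r} {z g : G} (hz : z ∈ c.L i) (hzi : c.Acts i z (-1)) (hg : g ∈ c.Lall) :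
    z * g * z⁻¹ * g⁻¹ ∈ centralizer (V : Set G) := by
  refine c.mem_C_of fun j => ?_
  obtain ⟨N, hN⟩ := c.exists_acts hg j
  have hzi' : c.Acts i z ((-1 : SL2) : M2) := by simpa using hzi
  obtain ⟨X, hX, hX'⟩ : ∃ X : SL2, c.Acts j z X ∧ X * N * X⁻¹ * N⁻¹ = 1 := by
    by_cases hj : j = i
    · subst hj
      exact ⟨-1, hzi', by rw [neg_one_mul, show (-N : SL2) * (-1)⁻¹ = N by
        rw [show ((-1 : SL2))⁻¹ = -1 from inv_eq_of_mul_eq_one_right (by rw [neg_one_mul, neg_neg]),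
          mul_neg, mul_one, neg_neg], mul_inv_cancel]⟩
    · exact ⟨1, by simpa using c.acts_cross (Ne.symm hj) hz, by group⟩
  have h := c.acts_mul (c.acts_mul (c.acts_mul hX hN) (c.acts_inv hX)) (c.acts_inv hN)
  rwa [← Matrix.SpecialLinearGroup.coe_mul, ← Matrix.SpecialLinearGroup.coe_mul,
    ← Matrix.SpecialLinearGroup.coe_mul, hX', Matrix.SpecialLinearGroup.coe_one] at h

omit [CharP F p] in
/-- The product leaves the set inverted by a central involution invariant. -/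
theorem neg_invariant {i : Fin r} {z g v : G} (hz : z ∈ c.L i) (hzi : c.Acts i z (-1)) (hg : g ∈ c.Lall)
    (hv : v ∈ V) (hzv : z * v * z⁻¹ = v⁻¹) : z * (g * v * g⁻¹) * z⁻¹ = (g * v * g⁻¹)⁻¹ := by
  set d := z * g * z⁻¹ * g⁻¹ with hd
  have e := mem_centralizer_iff.1 (c.neg_comm hz hzi hg) (g * v⁻¹ * g⁻¹) (c.conjV (V.inv_mem hv))
  calc z * (g * v * g⁻¹) * z⁻¹ = d * (g * (z * v * z⁻¹) * g⁻¹) * d⁻¹ := by rw [hd]; group
    _ = (g * v⁻¹ * g⁻¹) * d * d⁻¹ := by rw [hzv, e]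
    _ = (g * v * g⁻¹)⁻¹ := by group

/-- Elements of `S` centralising the fixed points of `S ∩ L` lie in `L`. -/
theorem mem_Lall_of_centralizes_fixed (hp2 : p ≠ 2) {s : G} (hs : s ∈ S)
    (hfix : ∀ v ∈ V, (∀ t ∈ S ⊓ c.Lall, t * v = v * t) → s * v = v * s) : s ∈ c.Lall := by
  refine c.mem_Lall_of fun i => ?_
  obtain ⟨z, hz, hzi⟩ := c.exists_neg i
  let N : Subgroup G :=
    { carrier := {v | v ∈ V ∧ z * v * z⁻¹ = v⁻¹}
      one_mem' := ⟨one_mem _, by simp⟩
      mul_mem' := by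
        rintro a b ⟨ha, ea⟩ ⟨hb, eb⟩
        refine ⟨V.mul_mem ha hb, ?_⟩
        rw [show z * (a * b) * z⁻¹ = (z * a * z⁻¹) * (z * b * z⁻¹) by group, ea, eb, mul_inv_rev,
          c.comm _ (V.inv_mem ha) _ (V.inv_mem hb)]
      inv_mem' := by
        rintro a ⟨ha, ea⟩
        refine ⟨V.inv_mem ha, ?_⟩
        rw [show z * a⁻¹ * z⁻¹ = (z * a * z⁻¹)⁻¹ by group, ea] }
  have hN : ∀ g ∈ c.Lall, ∀ v ∈ N, g * v * g⁻¹ ∈ N :=
    fun g hg v hv => ⟨c.conjV hv.1, c.neg_invariant hz hzi hg hv.1 hv.2⟩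
  have hNn : S ⊓ c.Lall ≤ normalizer (N : Set G) := fun g hg => by
    refine mem_normalizer_iff.2 fun v => ⟨hN g hg.2 v, fun h => ?_⟩
    have := hN g⁻¹ (inv_mem hg.2) _ h
    rwa [show g⁻¹ * (g * v * g⁻¹) * g⁻¹⁻¹ = v by group] at this
  have hNne : N ≠ ⊥ := by
    obtain ⟨v, hv, hvi, -, hvz⟩ := c.exists_lift hp2 i (Pi.single 0 1)
    intro h
    have hv1 : v ∈ N := ⟨hv, hvz z hz hzi⟩
    rw [h, mem_bot] at hv1
    rw [hv1, c.pi_one] at hvi
    simpa using congrFun hvi 0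
  obtain ⟨v₀, hv₀, hv₀1, hv₀f⟩ := H34.Para.exists_fixed_ne_one (c.hS.to_le inf_le_left) hNn
    (fun v hv => c.expV v hv.1) hNne
  set w₀ := c.π i v₀
  have hw₀ : w₀ ≠ 0 := fun h => hv₀1 (c.lift_unique hp2 hz hv₀.1 hv₀.2 h)
  have hothers : ∀ j, j ≠ i → c.π j v₀ = 0 := by
    intro j hj
    have h := c.acts_cross (Ne.symm hj) hz v₀ hv₀.1
    rw [hv₀.2, c.pi_inv j hv₀.1, Matrix.one_mulVec] at h
    funext k
    have hk := congrFun h k
    rw [Pi.neg_apply] at hk
    exact (mul_eq_zero.1 (show (2 : F) * c.π j v₀ k = 0 by linear_combination -hk)).resolve_left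
      (c.two_ne_zero hp2)
  have hsv₀ : s * v₀ * s⁻¹ = v₀ := by rw [hfix v₀ hv₀.1 hv₀f, mul_inv_cancel_right]
  obtain ⟨j, hj⟩ := c.perm s hs i
  have hji : j = i := by
    by_contra hne
    exact hw₀ ((c.ker_conj hj hv₀.1).1 (by rw [hsv₀]; exact hothers j hne))
  subst hji
  obtain ⟨ψ, σ, -, hψ, hσ⟩ := c.exists_semilinear hj
  have hlin : ∀ a : F, σ a = a := by
    intro a
    obtain ⟨v, hv, hvi, -, hvz⟩ := c.exists_lift hp2 j (a • w₀)
    have hzv := hvz z hz hzi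
    have hvfix : ∀ t ∈ S ⊓ c.Lall, t * v = v * t := by
      intro t ht
      obtain ⟨X, hX⟩ := c.exists_acts ht.2 j
      have hXw : (X : M2) *ᵥ w₀ = w₀ := by
        rw [← hX v₀ hv₀.1, hv₀f t ht, mul_inv_cancel_right]
      have hd : (t * v * t⁻¹) * v⁻¹ ∈ N := N.mul_mem (hN t ht.2 v ⟨hv, hzv⟩) (N.inv_mem ⟨hv, hzv⟩)
      have h1 := c.lift_unique hp2 hz hd.1 hd.2 (by
        rw [c.pi_div j (c.conjV hv) hv, hX v hv, hvi, Matrix.mulVec_smul, hXw, sub_self])
      exact mul_inv_eq_iff_eq_mul.1 (mul_inv_eq_one.1 h1)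
    have h1 := hψ v hv
    rw [hfix v hv hvfix, mul_inv_cancel_right, hvi, hσ] at h1
    have h2 := hψ v₀ hv₀.1
    rw [hsv₀] at h2
    rw [show ψ w₀ = w₀ from h2.symm] at h1
    exact (smul_left_injective F hw₀ h1).symm
  obtain ⟨k, hk⟩ := c.exists_pow hs
  exact c.acts_of_linear hk ψ hψ fun a w => by rw [hσ, hlin]

/-- A quadratic element of `S` lies in `L`. -/
theorem mem_Lall_of_quadratic (hp2 : p ≠ 2) {b : G} (hb : b ∈ S)
    (hq : ∀ v ∈ V, ⁅b, ⁅b, v⁆⁆ = 1) : b ∈ c.Lall := by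
  refine c.mem_Lall_of fun i => ?_
  obtain ⟨k, hk⟩ := c.exists_pow hb
  have hrel : ∀ v ∈ V, ∀ m, c.π m (b * (b * v * b⁻¹) * b⁻¹) = c.π m (b * v * b⁻¹) +
      (c.π m (b * v * b⁻¹) - c.π m v) := by
    intro v hv m
    have e := hq v hv
    rw [commutatorElement_eq_one_iff_mul_comm] at e
    have e1 : b * ⁅b, v⁆ * b⁻¹ = ⁅b, v⁆ := by rw [e, mul_inv_cancel_right]
    have hm : ⁅b, v⁆ ∈ V := by rw [commutatorElement_def]; exact V.mul_mem (c.conjV hv) (V.inv_mem hv)
    have e2 : b * (b * v * b⁻¹) * b⁻¹ = ⁅b, v⁆ * (b * v * b⁻¹) := by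
      conv_rhs => rw [← e1]
      simp only [commutatorElement_def]; group
    rw [e2, c.πmul m _ hm _ (c.conjV hv), commutatorElement_def, c.pi_div m (c.conjV hv) hv, add_comm]
  obtain ⟨j, hj⟩ := c.perm b hb i
  have hji : j = i := by
    by_contra hne
    obtain ⟨v, hv, hvi, hvo⟩ := c.surj i (Pi.single 0 1)
    obtain ⟨j₂, hj₂⟩ := c.perm b hb j
    have hki : j₂ ≠ i := by
      intro h
      subst h
      have h2 : b * b ∈ normalizer ((c.L j₂ : Subgroup G) : Set G) := H34.Para.mem_normalizer_of_cj_eq (by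
        rw [H34.MinOffender.cj_mul, hj, hj₂])
      have hcop : Nat.Coprime 2 (orderOf b) := Nat.Coprime.coprime_dvd_right (orderOf_dvd_of_pow_eq_one hk)
        (((Nat.coprime_primes Nat.prime_two hp.out).2 hp2.symm).pow_right k)
      obtain ⟨m, hm⟩ := exists_pow_eq_self_of_coprime hcop
      have hbN : b ∈ normalizer ((c.L j₂ : Subgroup G) : Set G) := by
        rw [← hm, pow_two]; exact pow_mem h2 m
      rw [H34.Para.cj_eq_of_mem_normalizer hbN] at hj
      exact hne (c.L_inj hp2 hj.symm)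
    obtain ⟨i₀, hi₀⟩ := c.perm b⁻¹ (inv_mem hb) i
    have hi₀' : cj b (c.L i₀) = c.L i := by rw [← hi₀, ← H34.MinOffender.cj_mul, mul_inv_cancel, H34.MinOffender.cj_one]
    have hi₀i : i₀ ≠ i := fun h => by
      rw [h] at hi₀'
      exact hne (c.L_inj hp2 (hj.symm.trans hi₀'))
    have h1 : c.π i (b * v * b⁻¹) = 0 := (c.ker_conj hi₀' hv).2 (hvo i₀ hi₀i)
    have h2 : c.π i (b * (b * v * b⁻¹) * b⁻¹) = 0 := by
      refine (c.ker_conj hi₀' (c.conjV hv)).2 ?_
      obtain ⟨i₁, hi₁⟩ := c.perm b⁻¹ (inv_mem hb) i₀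
      have hi₁' : cj b (c.L i₁) = c.L i₀ := by
        rw [← hi₁, ← H34.MinOffender.cj_mul, mul_inv_cancel, H34.MinOffender.cj_one]
      refine (c.ker_conj hi₁' hv).2 (hvo i₁ fun h => ?_)
      rw [h] at hi₁'
      have hji₀ : j = i₀ := c.L_inj hp2 (hj.symm.trans hi₁')
      subst hji₀
      exact hki (c.L_inj hp2 (hj₂.symm.trans hi₀'))
    have h3 := hrel v hv i
    rw [h2, h1, hvi] at h3
    simpa using congrFun h3 0
  subst hji
  obtain ⟨ψ, σ, hbij, hψ, hσ⟩ := c.exists_semilinear hj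
  have hquad : ∀ w, ψ (ψ w) = ψ w + (ψ w - w) := by
    intro w
    obtain ⟨v, hv, hvi, -⟩ := c.surj j w
    have := hrel v hv j
    rwa [hψ _ (c.conjV hv), hψ v hv, hvi] at this
  have hlin : ∀ (a : F) w, ψ (a • w) = a • ψ w := by
    by_cases hid : ∀ w, ψ w = w
    · intro a w; rw [hid, hid]
    push Not at hid
    obtain ⟨w, hw⟩ := hid
    set d := ψ w - w
    have hd : d ≠ 0 := sub_ne_zero.2 hw
    have hψd : ψ d = d := by simp only [d]; rw [map_sub, hquad]; abel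
    have hinj : ∀ x y : F, σ x = σ y → x = y := fun x y h =>
      smul_left_injective F hd (hbij.1 (by rw [hσ, hσ, h]))
    intro a w'
    have e1 := hquad (a • d)
    rw [hσ, hψd, hσ, hψd] at e1
    have e1' : σ (σ a) = σ a + (σ a - a) := smul_left_injective F hd
      (show σ (σ a) • d = (σ a + (σ a - a)) • d by rw [e1, add_smul, sub_smul])
    have e2 := hquad (a • w)
    rw [hσ, hσ, hquad w, e1', show ψ w = w + d by simp [d]] at e2
    have e3 : (σ a - a) • d = 0 := by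
      funext k
      have hk := congrFun e2 k
      simp only [Pi.add_apply, Pi.sub_apply, Pi.smul_apply, smul_eq_mul] at hk
      simp only [Pi.smul_apply, smul_eq_mul, Pi.zero_apply]
      have h2 : (2 : F) * ((σ a - a) * d k) = 0 := by linear_combination hk
      exact (mul_eq_zero.1 h2).resolve_left (c.two_ne_zero hp2)
    rw [hσ, sub_eq_zero.1 ((smul_eq_zero.1 e3).resolve_right hd)]
  exact c.acts_of_linear hk ψ hψ hlin

omit [Fintype F] in
/-- A subgroup with the kernel of all coordinates and all lifts contains `V`. -/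
theorem V_le_of_lifts (hp2 : p ≠ 2) {W : Subgroup G}
    (h0 : V ⊓ centralizer ((c.Lall : Subgroup G) : Set G) ≤ W)
    (hl : ∀ i, ∀ z ∈ c.L i, c.Acts i z (-1) → ∀ v ∈ V, z * v * z⁻¹ = v⁻¹ →
      (∀ j, j ≠ i → c.π j v = 0) → v ∈ W) : V ≤ W := by
  classical
  suffices h : ∀ (s : Finset (Fin r)), ∀ v ∈ V, (∀ i, i ∉ s → c.π i v = 0) → v ∈ W from
    fun v hv => h Finset.univ v hv (fun i hi => absurd (Finset.mem_univ i) hi)
  intro s
  induction s using Finset.induction with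
  | empty => exact fun v hv h => h0 ⟨hv, (c.kerAll_iff hv).1 fun i => h i (Finset.notMem_empty i)⟩
  | @insert i s his ih =>
    intro v hv h
    obtain ⟨z, hz, hzi⟩ := c.exists_neg i
    obtain ⟨u, hu, hui, huo, huz⟩ := c.exists_lift hp2 i (c.π i v)
    have h1 : v * u⁻¹ ∈ W := ih _ (V.mul_mem hv (V.inv_mem hu)) fun j hj => by
      rw [c.pi_div j hv hu]
      by_cases hji : j = i
      · subst hji; rw [hui, sub_self]
      · rw [huo j hji, h j (by simp [hji, hj]), sub_zero]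
    have := W.mul_mem h1 (hl i z hz hzi u hu (huz z hz hzi) huo)
    rwa [inv_mul_cancel_right] at this

/-- An abelian subgroup of `S` with no larger offender number lies in `L`. -/
theorem le_Lall_of_offender (hp2 : p ≠ 2) {A : Subgroup G} (hAS : A ≤ S)
    (hA : ∀ a ∈ A, ∀ b ∈ A, a * b = b * a)
    (hmax : ∀ B ≤ A, H34.offNum V B ≤ H34.offNum V A) (hVS : V ≤ S) : A ≤ c.Lall := by
  classical
  haveI := c.Vn
  haveI : IsMulCommutative V := le_centralizer_iff_isMulCommutative.1 fun a ha =>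
    mem_centralizer_iff.2 fun b hb => c.comm b hb a ha
  have hAV : A ≤ normalizer (V : Set G) := le_top.trans (normalizer_eq_top_iff.2 c.Vn).ge
  obtain ⟨-, hfix⟩ := H34.replacement hAV (by
    rw [commutator_le]
    intro a ha b hb
    rw [commutatorElement_eq_one_iff_mul_comm.2 (hA a ha b hb)]
    exact one_mem _) hmax (le_refl V)
  set B := A ⊓ centralizer ((⁅V, A⁆ : Subgroup G) : Set G)
  set VB := V ⊓ centralizer (B : Set G)
  have hcomV : ∀ a ∈ A, ∀ v ∈ V, ⁅a, v⁆ ∈ ⁅V, A⁆ := fun a ha v hv => by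
    rw [← commutatorElement_inv]; exact inv_mem (commutator_mem_commutator hv ha)
  have hcomVB : ∀ a ∈ A, ∀ v ∈ V, ⁅a, v⁆ ∈ VB := fun a ha v hv =>
    hfix ▸ mem_sup_left (hcomV a ha v hv)
  have hBL : B ≤ c.Lall := fun b hb => c.mem_Lall_of_quadratic hp2 (hAS hb.1) fun v hv => by
    rw [commutatorElement_eq_one_iff_mul_comm]
    exact (mem_centralizer_iff.1 hb.2 _ (hcomV b hb.1 v hv)).symm
  let supp : Fin r → Prop := fun i => ∃ b ∈ B, ∃ v ∈ V, c.π i (b * v * b⁻¹) ≠ c.π i v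
  let Fix : Fin r → (Fin 2 → F) → Prop := fun i w =>
    ∀ b ∈ B, ∀ X : M2, c.Acts i b X → X *ᵥ w = w
  have hFixV : ∀ i, ∀ v ∈ VB, Fix i (c.π i v) := fun i v hv b hb X hX => by
    rw [← hX v hv.1, mem_centralizer_iff.1 hv.2 b hb, mul_inv_cancel_right]
  have hFixne : ∀ i, supp i → ∃ w, ¬ Fix i w := by
    rintro i ⟨b, hb, v, hv, hne⟩
    obtain ⟨X, hX⟩ := c.exists_acts (hBL hb) i
    exact ⟨c.π i v, fun h => hne (by rw [hX v hv, h b hb X hX])⟩
  -- members of `A` fix the moved components and are linear there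
  have hA1 : ∀ a ∈ A, ∀ i, supp i → cj a (c.L i) = c.L i := by
    intro a ha i hi
    obtain ⟨k, hk⟩ := c.perm a⁻¹ (inv_mem (hAS ha)) i
    have hk' : cj a (c.L k) = c.L i := by
      rw [← hk, ← H34.MinOffender.cj_mul, mul_inv_cancel, H34.MinOffender.cj_one]
    by_cases hki : k = i
    · rwa [hki] at hk'
    exfalso
    obtain ⟨w, hw⟩ := hFixne i hi
    obtain ⟨v, hv, hvi, hvo⟩ := c.surj i w
    have h1 := hFixV i _ (hcomVB a ha v hv)
    rw [commutatorElement_def, c.pi_div i (c.conjV hv) hv, (c.ker_conj hk' hv).2 (hvo k hki), hvi,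
      zero_sub] at h1
    refine hw fun b hb X hX => ?_
    have := h1 b hb X hX
    rw [Matrix.mulVec_neg] at this
    exact neg_injective this
  have hA2 : ∀ a ∈ A, ∀ i, supp i → ∃ X : SL2, c.Acts i a X := by
    intro a ha i hi
    obtain ⟨ψ, σ, hbij, hψ, hσ⟩ := c.exists_semilinear (hA1 a ha i hi)
    obtain ⟨k, hk⟩ := c.exists_pow (hAS ha)
    refine c.acts_of_linear hk ψ hψ fun l w => ?_
    have hdiff : ∀ u, Fix i (ψ u - u) := fun u => by
      obtain ⟨v, hv, hvi, -⟩ := c.surj i u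
      have := hFixV i _ (hcomVB a ha v hv)
      rwa [commutatorElement_def, c.pi_div i (c.conjV hv) hv, hψ v hv, hvi] at this
    rw [hσ]
    by_contra hne
    have hl : σ l - l ≠ 0 := fun h => hne (by rw [sub_eq_zero.1 h])
    obtain ⟨w₁, hw₁⟩ := hFixne i hi
    obtain ⟨u, hu⟩ := hbij.2 ((σ l - l)⁻¹ • w₁)
    refine hw₁ fun b hb X hX => ?_
    have e1 := hdiff (l • u) b hb X hX
    have e2 : l • (X *ᵥ (ψ u - u)) = l • (ψ u - u) := by rw [hdiff u b hb X hX]
    rw [← Matrix.mulVec_smul] at e2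
    have e3 : w₁ = (ψ (l • u) - l • u) - l • (ψ u - u) := by
      rw [hσ, hu, smul_sub]
      calc w₁ = (σ l - l) • ((σ l - l)⁻¹ • w₁) := by rw [smul_smul, mul_inv_cancel₀ hl, one_smul]
        _ = _ := by rw [sub_smul]; abel
    rw [e3, Matrix.mulVec_sub, e1, e2]
  have hA3 : ∀ a ∈ A, ∀ i, ¬ supp i → ∀ j, cj a (c.L i) = c.L j → ¬ supp j := by
    intro a ha i hi j hj hsj
    have e := congrArg (cj a⁻¹) (hj.trans (hA1 a ha j hsj).symm)
    rw [H34.Para.cj_inv_cj, H34.Para.cj_inv_cj] at e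
    exact hi (c.L_inj hp2 e ▸ hsj)
  -- the subgroup supported on the moved components
  let Vs : Subgroup G :=
    { carrier := {v | v ∈ V ∧ ∀ i, ¬ supp i → c.π i v = 0}
      one_mem' := ⟨one_mem _, fun i _ => c.pi_one i⟩
      mul_mem' := by
        rintro x y ⟨hx, ex⟩ ⟨hy, ey⟩
        exact ⟨V.mul_mem hx hy, fun i hi => by rw [c.πmul i x hx y hy, ex i hi, ey i hi, add_zero]⟩
      inv_mem' := by
        rintro x ⟨hx, ex⟩
        exact ⟨V.inv_mem hx, fun i hi => by rw [c.pi_inv i hx, ex i hi, neg_zero]⟩ }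
  have hVsA : ∀ a ∈ A, ∀ v ∈ Vs, a * v * a⁻¹ ∈ Vs := by
    intro a ha v hv
    refine ⟨c.conjV hv.1, fun i hi => ?_⟩
    obtain ⟨k, hk⟩ := c.perm a⁻¹ (inv_mem (hAS ha)) i
    exact (c.ker_conj (by rw [← hk, ← H34.MinOffender.cj_mul, mul_inv_cancel, H34.MinOffender.cj_one]) hv.1).2
      (hv.2 k (hA3 a⁻¹ (inv_mem ha) i hi k hk))
  have hdec : V ≤ Vs ⊔ VB := by
    refine c.V_le_of_lifts hp2 (fun v hv => mem_sup_right ⟨hv.1, mem_centralizer_iff.2 fun b hb =>
      (mem_centralizer_iff.1 hv.2 b (hBL hb))⟩) fun i z hz hzi v hv hzv hvo => ?_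
    by_cases hi : supp i
    · exact mem_sup_left ⟨hv, fun j hj => hvo j fun h => hj (h ▸ hi)⟩
    refine mem_sup_right ⟨hv, mem_centralizer_iff.2 fun b hb => ?_⟩
    have hd : z * (b * v * b⁻¹ * v⁻¹) * z⁻¹ = (b * v * b⁻¹ * v⁻¹)⁻¹ := by
      rw [show z * (b * v * b⁻¹ * v⁻¹) * z⁻¹ = (z * (b * v * b⁻¹) * z⁻¹) * (z * v * z⁻¹)⁻¹ by group,
        c.neg_invariant hz hzi (hBL hb) hv hzv, hzv, c.comm _ (c.conjV hv) _ (V.inv_mem hv)]
      group
    have h1 := c.lift_unique hp2 hz (V.mul_mem (c.conjV hv) (V.inv_mem hv)) hd (by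
      rw [c.pi_div i (c.conjV hv) hv, sub_eq_zero]
      by_contra h
      exact hi ⟨b, hb, v, hv, h⟩)
    exact mul_inv_eq_iff_eq_mul.1 (mul_inv_eq_one.1 h1)
  -- `A` is trivial outside the moved components
  have hstep : ∀ n : ℕ, ∀ v ∈ V, ∀ a ∈ A, ⁅v, a⁆ ∈ Vs ⊔ (V ⊓ S.lowerCentralSeries n) := by
    intro n
    induction n with
    | zero =>
      intro v hv a ha
      have hm : ⁅v, a⁆ ∈ V := by
        rw [← commutatorElement_inv, commutatorElement_def]
        exact V.inv_mem (V.mul_mem (c.conjV hv) (V.inv_mem hv))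
      exact mem_sup_right ⟨hm, hVS hm⟩
    | succ n ih =>
      intro v hv a ha
      set T := Vs ⊔ (V ⊓ S.lowerCentralSeries (n + 1))
      have hTV : T ≤ V := sup_le (fun x hx => hx.1) inf_le_left
      let Q : Subgroup G :=
        { carrier := {x | x ∈ V ∧ ⁅x, a⁆ ∈ T}
          one_mem' := ⟨one_mem _, by rw [commutatorElement_one_left]; exact one_mem _⟩
          mul_mem' := by
            rintro x y ⟨hx, ex⟩ ⟨hy, ey⟩
            refine ⟨V.mul_mem hx hy, ?_⟩
            rw [show ⁅x * y, a⁆ = (x * ⁅y, a⁆ * x⁻¹) * ⁅x, a⁆ by simp only [commutatorElement_def]; group,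
              c.comm x hx _ (hTV ey), mul_inv_cancel_right]
            exact T.mul_mem ey ex
          inv_mem' := by
            rintro x ⟨hx, ex⟩
            refine ⟨V.inv_mem hx, ?_⟩
            rw [show ⁅x⁻¹, a⁆ = x⁻¹ * ⁅x, a⁆⁻¹ * x by simp only [commutatorElement_def]; group,
              c.comm x⁻¹ (V.inv_mem hx) _ (hTV (T.inv_mem ex)), inv_mul_cancel_right]
            exact T.inv_mem ex }
      have hVsQ : Vs ≤ Q := fun x hx => ⟨hx.1, mem_sup_left (by
        rw [commutatorElement_def, show x * a * x⁻¹ * a⁻¹ = x * (a * x⁻¹ * a⁻¹) by group]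
        exact Vs.mul_mem hx (hVsA a ha _ (Vs.inv_mem hx)))⟩
      have hgQ : V ⊓ S.lowerCentralSeries n ≤ Q := fun x hx => ⟨hx.1, mem_sup_right ⟨by
        rw [← commutatorElement_inv, commutatorElement_def]
        exact V.inv_mem (V.mul_mem (c.conjV hx.1) (V.inv_mem hx.1)),
        commutator_mem_commutator hx.2 (hAS ha)⟩⟩
      have hVQ : V ≤ Q := hdec.trans (sup_le hVsQ (hfix.le.trans (sup_le (commutator_le.2 fun x hx b hb =>
        sup_le hVsQ hgQ (ih x hx b hb)) fun x hx => ⟨hx.1, by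
          rw [commutatorElement_eq_one_iff_mul_comm.2 (mem_centralizer_iff.1 hx.2 a ha).symm]
          exact one_mem _⟩)))
      exact (hVQ hv).2
  haveI : Group.IsNilpotent S := c.hS.isNilpotent
  obtain ⟨n, hn⟩ := (Subgroup.isNilpotent_iff_lowerCentralSeries S).1 inferInstance
  intro a ha
  refine c.mem_Lall_of fun i => ?_
  by_cases hi : supp i
  · exact hA2 a ha i hi
  refine ⟨1, fun v hv => ?_⟩
  have h1 := hstep n v hv a ha
  rw [hn, inf_bot_eq, sup_bot_eq] at h1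
  have h2 := h1.2 i hi
  rw [commutatorElement_def, show v * a * v⁻¹ * a⁻¹ = v * (a * v * a⁻¹)⁻¹ by group,
    c.pi_div i hv (c.conjV hv), sub_eq_zero] at h2
  rw [Matrix.SpecialLinearGroup.coe_one, Matrix.one_mulVec]
  exact h2.symm

end Cfsg.Agent.H73.Focal.Coord
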