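import Cfsg.Agent.H73.Focal.VData
import Cfsg.Agent.H73.Focal.Comp
import Cfsg.Agent.H73.Focal.Off
import Cfsg.Agent.H72.LocalFixed
import Cfsg.Agent.H35.ThompsonA
import Mathlib

/-! Abelian subgroups of largest order act on `V` inside the product of the components. -/

set_option autoImplicit false
set_option linter.style.haveILetI false

namespace Cfsg.Agent.H73.Focal

open Subgroup
open Cfsg.Agent.H72 (IsMaxAb)
open Cfsg.Agent.H34 (offNum)
open scoped commutatorElement

universe u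

variable {G : Type u} [Group G] [Finite G] {p : ℕ} [Fact p.Prime] {S : Sylow p G} {M V A : Subgroup G}

theorem IsMaxAb.mem {P : Subgroup G} (hA : IsMaxAb P A) {v : G} (hv : v ∈ P)
    (hc : ∀ a ∈ A, a * v = v * a) : v ∈ A := by
  have hm : IsMulCommutative A := ⟨⟨fun a b => Subtype.ext (hA.2.1 a a.2 b b.2).eq⟩⟩
  have hB : IsMulCommutative ↥(A ⊔ zpowers v) := H35.isMulCommutative_sup_zpowers hm (fun a ha => (hc a ha))
  have hle := hA.2.2 (A ⊔ zpowers v) (sup_le hA.1 (zpowers_le.2 hv))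
    (fun a ha b hb => H35.commute_of_mem_isMulCommutative hB ha hb)
  exact H35.mem_of_card_max le_sup_left hle (mem_sup_right (mem_zpowers v))

theorem maxAb_offNum' (hVc : ∀ a ∈ V, ∀ b ∈ V, a * b = b * a) (hVS : V ≤ (S : Subgroup G))
    (hA : IsMaxAb (S : Subgroup G) A) :
    ∀ B ≤ A, offNum V B ≤ offNum V A := by
  intro B hB
  set D := V ⊓ centralizer (B : Set G)
  have hcomm : ∀ x ∈ B ⊔ D, ∀ y ∈ B ⊔ D, Commute x y := by
    have h1 : B ⊔ D ≤ centralizer ((B ⊔ D : Subgroup G) : Set G) := by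
      rw [H34.centralizer_sup_eq]
      refine sup_le (le_inf (fun b hb => mem_centralizer_iff.2 fun b' hb' => (hA.2.1 b' (hB hb') b (hB hb)).eq)
        (le_centralizer_iff.1 inf_le_right)) (le_inf inf_le_right fun x hx => mem_centralizer_iff.2 fun y hy =>
        hVc y hy.1 x hx.1)
    exact fun x hx y hy => mem_centralizer_iff.1 (h1 hy) x hx
  have h2 := hA.2.2 (B ⊔ D) (sup_le (hB.trans hA.1) (inf_le_left.trans hVS)) hcomm
  have h3 : B ⊓ D ≤ V ⊓ centralizer (A : Set G) := fun x hx =>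
    ⟨hx.2.1, mem_centralizer_iff.2 fun a ha => (hA.2.1 a ha x (hB hx.1)).eq⟩
  exact (H34.card_mul_card_le B D).trans (Nat.mul_le_mul h2 (card_le_of_le h3))

theorem VData.maxAb_offNum (d : VData p S V) (hA : IsMaxAb (S : Subgroup G) A) :
    ∀ B ≤ A, offNum V B ≤ offNum V A :=
  haveI := H19.pCore_normal p G
  maxAb_offNum' d.comm (d.VQ.trans (IsPGroup.le_sylow_of_normal (H19.pCore_isPGroup p) S)) hA

theorem exists_maxAb_not_le (h : Hyp0 p S M) (d : VData p S V) :
    ∃ A, IsMaxAb (S : Subgroup G) A ∧ ¬ A ≤ centralizer (V : Set G) := by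
  by_contra hno
  push Not at hno
  haveI := H19.pCore_normal p G
  set Q := Cfsg.pCore p G
  have hQS : Q ≤ (S : Subgroup G) := IsPGroup.le_sylow_of_normal (H19.pCore_isPGroup p) S
  have hJQ : Cfsg.thompsonSubgroupAOf (S : Subgroup G) ≤ Q := by
    rw [H72.thompsonSubgroupAOf_eq]
    exact sSup_le fun A hA => (le_inf hA.1 (hno A hA)).trans d.SC
  have heq := H72.thompsonSubgroupAOf_eq_of_le hQS hJQ
  have hn : (Cfsg.thompsonSubgroupAOf (S : Subgroup G)).Normal := by
    rw [← heq, ← normalizer_eq_top_iff, ← top_le_iff]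
    exact (normalizer_eq_top_iff.2 (inferInstance : Q.Normal)).ge.trans
      (H72.normalizer_le_normalizer_thompsonSubgroupAOf Q)
  have hchar : (Cfsg.centerThompsonAOf (S : Subgroup G)).Normal := by
    haveI := hn
    exact inferInstanceAs ((Cfsg.thompsonSubgroupAOf (S : Subgroup G)) ⊓
      centralizer ((Cfsg.thompsonSubgroupAOf (S : Subgroup G) : Subgroup G) : Set G)).Normal
  exact h.hzj hchar

/-- The offender obtained by replacement. -/
theorem exists_quadratic' (hVn : V.Normal) (hVc : ∀ a ∈ V, ∀ b ∈ V, a * b = b * a)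
    (hVQ : V ≤ Cfsg.pCore p G) (hVp : ∀ v ∈ V, v ^ p ∈ Subgroup.center G) (hA : IsMaxAb (S : Subgroup G) A)
    (hAn : ¬ A ≤ centralizer (V : Set G)) :
    ∃ B ≤ A, (∀ b ∈ B, b ^ p ∈ centralizer (V : Set G)) ∧ ¬ B ≤ centralizer (V : Set G) ∧
      (∀ b ∈ B, ∀ v ∈ V, ⁅b, ⁅b, v⁆⁆ = 1) ∧
      Nat.card V * Nat.card ↥(B ⊓ centralizer (V : Set G)) ≤
        Nat.card B * Nat.card ↥(V ⊓ centralizer (B : Set G)) := by
  haveI := hVn
  haveI := H19.pCore_normal p G
  haveI : IsMulCommutative V := ⟨⟨fun a b => Subtype.ext (hVc a a.2 b b.2)⟩⟩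
  have hAV : A ≤ normalizer (V : Set G) := le_top.trans (normalizer_eq_top_iff.2 hVn).ge
  have hmax := maxAb_offNum' hVc (hVQ.trans (IsPGroup.le_sylow_of_normal (H19.pCore_isPGroup p) S)) hA
  obtain ⟨hnum, hfix⟩ := H34.replacement hAV (commutator_le.2 fun a ha b hb => by
    rw [commutatorElement_eq_one_iff_mul_comm.2 (hA.2.1 a ha b hb).eq]
    exact one_mem _) hmax (le_refl V)
  set B := A ⊓ centralizer ((⁅V, A⁆ : Subgroup G) : Set G)
  have hm : ∀ b ∈ A, ∀ v ∈ V, ⁅b, v⁆ ∈ ⁅V, A⁆ := fun b hb v hv => by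
    rw [← commutatorElement_inv]; exact inv_mem (commutator_mem_commutator hv hb)
  have hq : ∀ b ∈ B, ∀ v ∈ V, ⁅b, ⁅b, v⁆⁆ = 1 := fun b hb v hv =>
    commutatorElement_eq_one_iff_mul_comm.2 (mem_centralizer_iff.1 hb.2 _ (hm b hb.1 v hv)).symm
  refine ⟨B, inf_le_left, fun b hb => mem_centralizer_iff.2 fun v hv => ?_, fun hle => hAn ?_, hq, ?_⟩
  · set c := ⁅b, v⁆
    have hcV : c ∈ V := by
      rw [show c = b * v * b⁻¹ * v⁻¹ from rfl]; exact V.mul_mem (hVn.conj_mem v hv b) (V.inv_mem hv)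
    have hcb : b * c * b⁻¹ = c := by
      rw [commutatorElement_eq_one_iff_mul_comm.1 (hq b hb v hv), mul_inv_cancel_right]
    have hpow : ∀ m : ℕ, b ^ m * v * (b ^ m)⁻¹ = c ^ m * v := by
      intro m
      induction m with
      | zero => simp
      | succ m ih =>
        have hcm : b * c ^ m * b⁻¹ = c ^ m := by rw [← conj_pow, hcb]
        calc b ^ (m + 1) * v * (b ^ (m + 1))⁻¹ = b * (b ^ m * v * (b ^ m)⁻¹) * b⁻¹ := by rw [pow_succ']; group
          _ = (b * c ^ m * b⁻¹) * (b * v * b⁻¹) := by rw [ih]; group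
          _ = c ^ (m + 1) * v := by rw [hcm, pow_succ]; simp only [c, commutatorElement_def]; group
    have e := hpow p
    have hlin : ∀ m : ℕ, b * v ^ m * b⁻¹ = c ^ m * v ^ m := fun m => by
      rw [← conj_pow, show b * v * b⁻¹ = c * v by simp only [c, commutatorElement_def]; group,
        (show Commute c v from hVc c hcV v hv).mul_pow]
    have hcp : c ^ p = 1 := by
      have e' := hlin p
      rw [Subgroup.mem_center_iff.1 (hVp v hv) b, mul_inv_cancel_right] at e'
      exact right_eq_mul.1 e'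
    rw [hcp, one_mul] at e
    calc v * b ^ p = (b ^ p * v * (b ^ p)⁻¹) * b ^ p := by rw [e]
      _ = b ^ p * v := by rw [inv_mul_cancel_right]
  · have hVB : V ⊓ centralizer (B : Set G) = V := inf_eq_left.2 (le_centralizer_iff.1 hle)
    rw [hVB] at hfix
    have hWV : ⁅V, A⁆ ≤ V := commutator_le_left V A
    have h1 : ⁅V, A⁆ ≤ ⁅⁅V, A⁆, A⁆ := by
      refine commutator_le.2 fun v hv a ha => ?_
      have hv' : v ∈ ⁅V, A⁆ ⊔ V ⊓ centralizer (A : Set G) := hfix ▸ hv
      rw [← SetLike.mem_coe, coe_mul_of_left_le_normalizer_right _ _ (hWV.trans (le_centralizer_iff_isMulCommutative.2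
        inferInstance |>.trans ((centralizer_le (SetLike.coe_subset_coe.2 inf_le_left)).trans (centralizer_le_normalizer _))))] at hv'
      obtain ⟨x, hx, y, hy, rfl⟩ := hv'
      have e : ⁅y, a⁆ = 1 := commutatorElement_eq_one_iff_mul_comm.2 (mem_centralizer_iff.1 hy.2 a ha).symm
      rw [show ⁅x * y, a⁆ = x * ⁅y, a⁆ * x⁻¹ * ⁅x, a⁆ by simp only [commutatorElement_def]; group, e, mul_one,
        mul_inv_cancel, one_mul]
      exact commutator_mem_commutator hx ha
    have hbot := H34.eq_bot_of_le_commutator (p := p) (V := ⁅V, A⁆) (A := A)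
      ((H19.pCore_isPGroup p).to_le (hWV.trans hVQ)) (fun a ha => by
        rw [mem_normalizer_iff_map_conj_eq, map_commutator, mem_normalizer_iff_map_conj_eq.1 (hAV ha),
          mem_normalizer_iff_map_conj_eq.1 (le_normalizer ha)])
      (fun a ha => by
        obtain ⟨k, hk⟩ := S.2 ⟨a, hA.1 ha⟩
        exact ⟨k, by rw [show a ^ p ^ k = 1 from congrArg Subtype.val hk]; exact one_mem _⟩) h1
    exact le_centralizer_iff.1 (commutator_eq_bot_iff_le_centralizer.1 hbot)
  · have h1 : offNum V (A ⊓ centralizer (V : Set G)) ≤ offNum V B := (hmax _ inf_le_left).trans hnum.ge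
    refine le_trans ?_ h1
    rw [offNum, mul_comm (Nat.card V),
      inf_eq_left.2 (le_centralizer_iff.1 (inf_le_right : A ⊓ centralizer (V : Set G) ≤ _))]
    exact Nat.mul_le_mul_right _ (card_le_of_le (inf_le_inf_right _ inf_le_left))

/-- The offender obtained by replacement, for `V` of exponent `p`. -/
theorem exists_quadratic (d : VData p S V) (hA : IsMaxAb (S : Subgroup G) A)
    (hAn : ¬ A ≤ centralizer (V : Set G)) :
    ∃ B ≤ A, (∀ b ∈ B, b ^ p ∈ centralizer (V : Set G)) ∧ ¬ B ≤ centralizer (V : Set G) ∧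
      (∀ b ∈ B, ∀ v ∈ V, ⁅b, ⁅b, v⁆⁆ = 1) ∧
      Nat.card V * Nat.card ↥(B ⊓ centralizer (V : Set G)) ≤
        Nat.card B * Nat.card ↥(V ⊓ centralizer (B : Set G)) :=
  exists_quadratic' d.Vn d.comm d.VQ (fun v hv => by rw [d.expV v hv]; exact one_mem _) hA hAn

end Cfsg.Agent.H73.Focal
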