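import Cfsg.Agent.H1.SylowTwoDim
import Cfsg.Agent.H1.SLTwoElements
import Mathlib

/-! Facts on `SL₂` of a finite field of odd characteristic. -/

set_option autoImplicit false

namespace Cfsg.Agent.H73.Focal

open Matrix

variable {F : Type} [Field F]

local notation "SL2" => SpecialLinearGroup (Fin 2) F
local notation "M2" => Matrix (Fin 2) (Fin 2) F

/-- An additive map commuting with `SL₂` is a scalar. -/
theorem commutant_scalar (f : (Fin 2 → F) →+ (Fin 2 → F))
    (h : ∀ (M : SL2) (x : Fin 2 → F), f ((M : M2) *ᵥ x) = (M : M2) *ᵥ f x) :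
    ∃ a : F, ∀ x, f x = a • x := by
  let T : F → SL2 := fun t => ⟨!![1, t; 0, 1], by simp [det_fin_two]⟩
  let W : SL2 := ⟨!![0, -1; 1, 0], by simp [det_fin_two]⟩
  let D : Fˣ → SL2 := fun t => ⟨!![(t : F), 0; 0, ((t⁻¹ : Fˣ) : F)], by simp [det_fin_two]⟩
  refine ⟨f ![1, 0] 0, ?_⟩
  set a := f ![1, 0] 0
  have h1 : f ![1, 0] = ![a, 0] := by
    have e := h (T 1) ![1, 0]
    have e1 : ((T 1 : SL2) : M2) *ᵥ ![1, 0] = ![1, 0] := by
      ext i; fin_cases i <;> simp [T, mulVec, dotProduct]
    rw [e1] at e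
    have e0 := congrFun e 0
    simp [T, mulVec, dotProduct] at e0
    ext i; fin_cases i
    · simp [a]
    · simpa using e0
  have h2 : ∀ t : F, f ![t, 0] = ![t * a, 0] := by
    intro t
    by_cases ht : t = 0
    · subst ht
      rw [show (![0, 0] : Fin 2 → F) = 0 by ext i; fin_cases i <;> rfl, map_zero]
      ext i; fin_cases i <;> simp
    have e := h (D (Units.mk0 t ht)) ![1, 0]
    have e1 : ((D (Units.mk0 t ht) : SL2) : M2) *ᵥ ![1, 0] = ![t, 0] := by
      ext i; fin_cases i <;> simp [D, mulVec, dotProduct]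
    rw [e1, h1] at e
    rw [e]
    ext i; fin_cases i <;> simp [D, mulVec, dotProduct]
  have h3 : ∀ t : F, f ![0, t] = ![0, t * a] := by
    intro t
    have e := h W ![t, 0]
    have e1 : ((W : SL2) : M2) *ᵥ ![t, 0] = ![0, t] := by
      ext i; fin_cases i <;> simp [W, mulVec, dotProduct]
    rw [e1, h2] at e
    rw [e]
    ext i; fin_cases i <;> simp [W, mulVec, dotProduct]
  intro x
  have e : x = ![x 0, 0] + ![0, x 1] := by ext i; fin_cases i <;> simp
  rw [e, map_add, h2, h3]
  ext i; fin_cases i <;> simp [mul_comm]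

variable [Fintype F] {p : ℕ} [Fact p.Prime] [CharP F p]

/-- Elements of `p`-power order are unipotent. -/
theorem sub_one_sq {M : M2} {k : ℕ} (hM : M ^ p ^ k = 1) : (M - 1) * (M - 1) = 0 := by
  set N := M - 1
  have hpow : N ^ p ^ k = 0 := by
    rw [show N = M - 1 from rfl, sub_pow_char_pow_of_commute (p := p) (h := Commute.one_right M), hM,
      one_pow, sub_self]
  have hdet : N.det = 0 := by
    have h := congrArg Matrix.det hpow
    rw [Matrix.det_pow, Matrix.det_zero] at h
    exact eq_zero_of_pow_eq_zero h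
  have hsq : N * N = Matrix.trace N • N := by
    rw [Matrix.det_fin_two] at hdet
    ext i j
    fin_cases i <;> fin_cases j <;>
      simp [Matrix.mul_apply, Fin.sum_univ_two, Matrix.trace_fin_two]
    · linear_combination -hdet
    · ring
    · ring
    · linear_combination -hdet
  by_cases ht : Matrix.trace N = 0
  · rw [hsq, ht, zero_smul]
  · have key : ∀ j : ℕ, N ^ (j + 1) = Matrix.trace N ^ j • N := fun j => by
      induction j with
      | zero => simp
      | succ j ih => rw [pow_succ, ih, smul_mul_assoc, hsq, smul_smul, pow_succ]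
    have h0 : N = 0 := by
      obtain ⟨j, hj⟩ : ∃ j, p ^ k = j + 1 :=
        Nat.exists_eq_succ_of_ne_zero (pow_ne_zero _ (Fact.out : p.Prime).ne_zero)
      rw [hj, key j] at hpow
      exact (smul_eq_zero.1 hpow).resolve_left (pow_ne_zero _ ht)
    rw [h0, mul_zero]

/-- A linear map of `p`-power order has determinant one. -/
theorem det_eq_one {M : M2} {k : ℕ} (hM : M ^ p ^ k = 1) : M.det = 1 := by
  have h := congrArg Matrix.det hM
  rw [Matrix.det_pow, Matrix.det_one] at h
  have h' : (M.det - 1) ^ p ^ k = 0 := by rw [sub_pow_char_pow, h, one_pow, sub_self]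
  exact sub_eq_zero.1 (eq_zero_of_pow_eq_zero h')

/-- A proper subgroup containing a Sylow `p`-subgroup normalises it. -/
theorem le_normalizer_of_sylow_le {H : Subgroup SL2} (P : Sylow p SL2) (hP : (P : Subgroup SL2) ≤ H)
    (hH : H ≠ ⊤) : H ≤ Subgroup.normalizer ((P : Subgroup SL2) : Set SL2) := by
  intro h hh
  rw [show ((P : Subgroup SL2) : Set SL2) = ((P : Sylow p SL2) : Set SL2) from rfl, ← Sylow.smul_eq_iff_mem_normalizer]
  by_contra hne
  refine hH (top_le_iff.1 ?_)
  rw [← H1.sylowSL_sup_eq_top p P (h • P) (Ne.symm hne)]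
  refine sup_le hP fun x hx => ?_
  have := H.mul_mem (H.mul_mem hh (hP ((H1.mem_smul_sylow p h x).1 hx))) (H.inv_mem hh)
  rwa [show h * (h⁻¹ * x * h) * h⁻¹ = x by group] at this

/-- A normal subgroup with a nontrivial `p`-element is everything. -/
theorem normal_eq_top (h2 : (2 : F) ≠ 0) {H : Subgroup SL2} [H.Normal] {x : SL2} (hx : x ∈ H)
    (hx1 : x ≠ 1) {k : ℕ} (hk : x ^ p ^ k = 1) : H = ⊤ := by
  have hz : IsPGroup p (Subgroup.zpowers x) := by
    rintro ⟨y, hy⟩
    obtain ⟨j, rfl⟩ := Subgroup.mem_zpowers_iff.1 hy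
    exact ⟨k, Subtype.ext (by
      simp only [SubmonoidClass.coe_pow, OneMemClass.coe_one]
      rw [← zpow_natCast, ← _root_.zpow_mul, mul_comm, _root_.zpow_mul, zpow_natCast, hk, _root_.one_zpow])⟩
  obtain ⟨Q, hQ⟩ := hz.exists_le_sylow
  obtain ⟨g, hg⟩ := MulAction.exists_smul_eq SL2 Q (H1.sylowSL (F := F) p)
  have hy : g * x * g⁻¹ ∈ H1.upperUni F := by
    rw [← H1.coe_sylowSL (F := F) p, ← hg]
    exact (H1.mem_smul_sylow p (P := Q) g _).2 (by simpa [mul_assoc] using hQ (Subgroup.mem_zpowers x))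
  obtain ⟨c, hc⟩ := hy
  have hcH : H1.upperUniHom F c ∈ H := hc ▸ ‹H.Normal›.conj_mem x hx g
  set a : F := Multiplicative.toAdd c
  have ha : a ≠ 0 := fun h0 => hx1 (by
    have : c = 1 := by simpa [a] using h0
    rw [this, map_one] at hc
    exact conj_eq_one_iff.1 hc.symm)
  let A : AddSubgroup F := (H.comap (H1.upperUniHom F)).toAddSubgroup'
  have hA : ∀ t : F, t ∈ A ↔ H1.upperUniHom F (Multiplicative.ofAdd t) ∈ H := fun _ => Iff.rfl
  have hsq : ∀ t : F, a * t * t ∈ A := by
    intro t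
    by_cases ht : t = 0
    · subst ht; simp
    rw [hA]
    let D : SL2 := ⟨!![t, 0; 0, t⁻¹], by simp [det_fin_two, ht]⟩
    have e : D * H1.upperUniHom F c * D⁻¹ = H1.upperUniHom F (Multiplicative.ofAdd (a * t * t)) := by
      rw [mul_inv_eq_iff_eq_mul]
      apply Subtype.ext
      show (D : M2) * _ = _ * (D : M2)
      rw [H1.upperUniHom_val, H1.upperUniHom_val]
      ext i j; fin_cases i <;> fin_cases j <;>
        simp [D, a, Matrix.mul_apply, Fin.sum_univ_two]
      field_simp
    exact e ▸ ‹H.Normal›.conj_mem _ hcH D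
  have hall : ∀ u : F, u ∈ A := by
    intro u
    set t := u / (4 * a)
    have h4 : (4 : F) * a ≠ 0 := mul_ne_zero (by
      rw [show (4 : F) = 2 * 2 by norm_num]; exact mul_ne_zero h2 h2) ha
    have e : u = a * (t + 1) * (t + 1) - a * (t - 1) * (t - 1) := by
      rw [show a * (t + 1) * (t + 1) - a * (t - 1) * (t - 1) = (4 * a) * t by ring,
        mul_div_cancel₀ _ h4]
    rw [e]
    exact A.sub_mem (hsq _) (hsq _)
  have hU : (H1.sylowSL (F := F) p : Subgroup SL2) ≤ H := by
    rw [H1.coe_sylowSL]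
    rintro _ ⟨u, rfl⟩
    exact (hA (Multiplicative.toAdd u)).1 (hall _)
  by_contra htop
  have hle := le_normalizer_of_sylow_le _ hU htop
  let L : SL2 := ⟨!![0, -1; 1, 0], by simp [det_fin_two]⟩
  let T : SL2 := ⟨!![1, 0; 1, 1], by simp [det_fin_two]⟩
  have hTL : L * H1.upperUniHom F (Multiplicative.ofAdd (-1 : F)) = T * L := by
    apply Subtype.ext
    show (L : M2) * _ = (T : M2) * (L : M2)
    rw [H1.upperUniHom_val]
    ext i j; fin_cases i <;> fin_cases j <;> simp [L, T, Matrix.mul_apply, Fin.sum_univ_two]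
  have hT : T ∈ H := by
    rw [show T = L * H1.upperUniHom F (Multiplicative.ofAdd (-1 : F)) * L⁻¹ by rw [hTL]; group]
    exact ‹H.Normal›.conj_mem _ (hU (by rw [H1.coe_sylowSL]; exact ⟨_, rfl⟩)) L
  have h3 := hle hT
  rw [H1.coe_sylowSL] at h3
  obtain ⟨d, hd⟩ := (Subgroup.mem_normalizer_iff.1 h3 _).1
    (⟨Multiplicative.ofAdd (1 : F), rfl⟩ : H1.upperUniHom F (Multiplicative.ofAdd (1 : F)) ∈ H1.upperUni F)
  have hd' : H1.upperUniHom F d * T = T * H1.upperUniHom F (Multiplicative.ofAdd (1 : F)) := by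
    rw [hd]; group
  have e11 := congrArg (fun m : SL2 => (m : M2) 1 1) hd'
  simp only [Matrix.SpecialLinearGroup.coe_mul, H1.upperUniHom_val] at e11
  simp [T, Matrix.mul_apply, Fin.sum_univ_two] at e11

end Cfsg.Agent.H73.Focal
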