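import Cfsg.Agent.H72.Push.FromSetup
import Cfsg.Agent.H35.ThompsonA
import Cfsg.Agent.H19.Cores
import Mathlib

/-! The normal closure of `Ω₁Z(S)` in a group with a unique maximal subgroup over `S`. -/

set_option autoImplicit false

namespace Cfsg.Agent.H73.Focal

open Subgroup
open Cfsg.Agent.H72.Push (NoChar autInv_center autInv_thompson)
open scoped commutatorElement

variable {G : Type*} [Group G] [Finite G] {p : ℕ} [Fact p.Prime]

/-- The standing hypotheses. -/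
structure Hyp (p : ℕ) (S : Sylow p G) (M : Subgroup G) : Prop where
  hC : centralizer (Cfsg.pCore p G : Set G) ≤ Cfsg.pCore p G
  hM : M ≠ ⊤
  hmax : ∀ H : Subgroup G, (S : Subgroup G) ≤ H → H ≠ ⊤ → H ≤ M
  hnc : NoChar (S : Subgroup G)

/-- The standing hypotheses with only the facts needed for the local subgroup. -/
structure Hyp0 (p : ℕ) (S : Sylow p G) (M : Subgroup G) : Prop where
  hC : centralizer (Cfsg.pCore p G : Set G) ≤ Cfsg.pCore p G
  hM : M ≠ ⊤
  hmax : ∀ H : Subgroup G, (S : Subgroup G) ≤ H → H ≠ ⊤ → H ≤ M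
  homega : ∃ Z : Subgroup G, Z ≤ (S : Subgroup G) ∧
    Z ≤ centralizer ((S : Subgroup G) : Set G) ∧ (∀ x ∈ Z, x ^ p = 1) ∧
      ∃ x ∈ Z, x ∉ centralizer ((⊤ : Subgroup G) : Set G)
  hzj : ¬ (Cfsg.centerThompsonAOf (S : Subgroup G)).Normal

variable {S : Sylow p G} {M : Subgroup G}

theorem Hyp.S_ne (h : Hyp p S M) : (S : Subgroup G) ≠ ⊥ := by
  intro e
  refine h.hM (top_le_iff.1 fun g _ => ?_)
  haveI := H19.pCore_normal p G
  have hQ : Cfsg.pCore p G = ⊥ := le_bot_iff.1 (e ▸ IsPGroup.le_sylow_of_normal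
    (H19.pCore_isPGroup p) S)
  have hh := h.hC (show g ∈ centralizer (Cfsg.pCore p G : Set G) by
    rw [mem_centralizer_iff, hQ]; intro x hx; simp [mem_bot.1 hx])
  rw [hQ, mem_bot] at hh
  rw [hh]; exact one_mem M

/-- Properties of `V`. -/
structure VData (p : ℕ) (S : Sylow p G) (V : Subgroup G) : Prop where
  Vn : V.Normal
  comm : ∀ a ∈ V, ∀ b ∈ V, a * b = b * a
  expV : ∀ v ∈ V, v ^ p = 1
  VQ : V ≤ Cfsg.pCore p G
  QC : Cfsg.pCore p G ≤ centralizer (V : Set G)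
  SC : (S : Subgroup G) ⊓ centralizer (V : Set G) ≤ Cfsg.pCore p G
  CS : centralizer (V : Set G) ⊔ (S : Subgroup G) ≠ ⊤
  op1 : ∀ D : Subgroup G, D.Normal → (∀ g ∈ D, ∃ k : ℕ, g ^ p ^ k ∈ centralizer (V : Set G)) →
    D ≤ centralizer (V : Set G)
  hz : ∃ z ∈ V, z ∈ centralizer ((S : Subgroup G) : Set G) ∧ z ∉ centralizer ((⊤ : Subgroup G) : Set G)
  gen : V ≤ normalClosure ((V ⊓ centralizer ((S : Subgroup G) : Set G) : Subgroup G) : Set G)

/-- `Ω₁Z(S)` inside `G`. -/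
theorem exists_omega (h : Hyp p S M) : ∃ Z : Subgroup G, Z ≤ (S : Subgroup G) ∧
    Z ≤ centralizer ((S : Subgroup G) : Set G) ∧ (∀ x ∈ Z, x ^ p = 1) ∧ Z ≠ ⊥ ∧ ¬ Z.Normal := by
  set S₀ : Subgroup G := (S : Subgroup G)
  have hcomm : ∀ x ∈ S₀ ⊓ centralizer (S₀ : Set G), ∀ y ∈ S₀ ⊓ centralizer (S₀ : Set G), Commute x y :=
    fun x hx y hy => mem_centralizer_iff.1 hy.2 x hx.1
  let Z : Subgroup G :=
    { carrier := {x | x ∈ S₀ ⊓ centralizer (S₀ : Set G) ∧ x ^ p = 1}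
      one_mem' := ⟨one_mem _, one_pow _⟩
      mul_mem' := fun {x y} hx hy => ⟨mul_mem hx.1 hy.1, by
        rw [(hcomm x hx.1 y hy.1).mul_pow, hx.2, hy.2, one_mul]⟩
      inv_mem' := fun {x} hx => ⟨inv_mem hx.1, by rw [inv_pow, hx.2, inv_one]⟩ }
  have hne : Z ≠ ⊥ := by
    intro e
    haveI : Nontrivial ↥S₀ := (nontrivial_iff_ne_bot S₀).2 h.S_ne
    haveI hc := S.2.center_nontrivial
    obtain ⟨m, hm, hcard⟩ :=
      ((S.2.to_subgroup (Subgroup.center ↥S₀)).nontrivial_iff_card).1 hc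
    obtain ⟨x, hx⟩ := exists_prime_orderOf_dvd_card' (G := Subgroup.center ↥S₀) p
      (hcard ▸ dvd_pow_self p hm.ne')
    have hmem : (((x : ↥S₀)) : G) ∈ Z := ⟨⟨(x : ↥S₀).2, mem_centralizer_iff.2 fun s hs =>
      congrArg Subtype.val (Subgroup.mem_center_iff.1 x.2 ⟨s, hs⟩)⟩, by
        have := congrArg (fun y : Subgroup.center ↥S₀ => ((y : ↥S₀) : G)) (pow_orderOf_eq_one x)
        simpa [hx] using this⟩
    rw [e, mem_bot] at hmem
    have : x = 1 := Subtype.ext (Subtype.ext hmem)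
    rw [this, orderOf_one] at hx
    exact (Fact.out : p.Prime).one_lt.ne hx
  refine ⟨Z, fun x hx => hx.1.1, fun x hx => hx.1.2, fun x hx => hx.2, hne, fun hn => hne ?_⟩
  refine h.hnc Z (fun x hx => hx.1.1) (fun α x hx => ⟨autInv_center S₀ α x hx.1, ?_⟩) hn
  have : x ^ p = 1 := Subtype.ext (by simpa using hx.2)
  have := congrArg (fun y : ↥S₀ => ((α y : ↥S₀) : G)) this
  simpa using this

theorem Hyp.to0 (h : Hyp p S M) : Hyp0 p S M := by
  obtain ⟨Z, h1, h2, h3, -, h5⟩ := exists_omega h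
  refine ⟨h.hC, h.hM, h.hmax, ⟨Z, h1, h2, h3, ?_⟩, fun hn => ?_⟩
  · by_contra hno
    push Not at hno
    refine h5 ⟨fun x hx g => ?_⟩
    have := mem_centralizer_iff.1 (hno x hx) g (mem_top g)
    rwa [this, mul_inv_cancel_right]
  exact H35.centerThompsonAOf_ne_bot S.2 h.S_ne
    (h.hnc _ (H35.centerThompsonAOf_le _) (autInv_thompson _) hn)

/-- The dichotomy: a normal subgroup with `D ⊔ S ≠ G` meets `S` inside `O_p(G)`. -/
theorem inf_le_pCore' (hM : M ≠ ⊤) (hmax : ∀ H : Subgroup G, (S : Subgroup G) ≤ H → H ≠ ⊤ → H ≤ M)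
    {D : Subgroup G} [D.Normal] (hD : D ⊔ (S : Subgroup G) ≠ ⊤) :
    (S : Subgroup G) ⊓ D ≤ Cfsg.pCore p G := by
  haveI := ‹D.Normal›
  set T : Subgroup G := (S : Subgroup G) ⊓ D
  have hTP : IsPGroup p T := S.2.to_le inf_le_left
  by_cases hN : normalizer (T : Set G) = ⊤
  · exact H19.le_pCore (normalizer_eq_top_iff.1 hN) hTP
  exfalso
  obtain ⟨P, hTle⟩ := (hTP.of_equiv (subgroupOfEquivOfLe (inf_le_right : T ≤ D)).symm).exists_le_sylow
  have hP : ((P : Subgroup ↥D).map D.subtype) = T := by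
    have h1 : T ≤ (P : Subgroup ↥D).map D.subtype :=
      (map_subgroupOf_eq_of_le (inf_le_right : T ≤ D)).ge.trans (map_mono hTle)
    refine (eq_of_le_of_card_ge h1 ?_).symm
    obtain ⟨R, hR⟩ := (P.2.map D.subtype).exists_le_sylow
    obtain ⟨g, hg⟩ := MulAction.exists_smul_eq G R S
    have h2 : ((P : Subgroup ↥D).map D.subtype).map (MulAut.conj g).toMonoidHom ≤ T := by
      rintro _ ⟨x, hx, rfl⟩
      refine ⟨?_, ‹D.Normal›.conj_mem x (map_subtype_le _ hx) g⟩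
      rw [← hg]
      exact (H1.mem_smul_sylow p g _).2 (by simpa [mul_assoc] using hR hx)
    have h3 := card_le_of_le h2
    rwa [card_map_of_injective (MulAut.conj g).injective] at h3
  have hsup := Sylow.normalizer_sup_eq_top P
  rw [hP] at hsup
  have hSN : (S : Subgroup G) ≤ normalizer (T : Set G) := fun s hs => by
    rw [mem_normalizer_iff_map_conj_eq, Subgroup.map_inf _ _ _ (MulAut.conj s).injective,
      mem_normalizer_iff_map_conj_eq.1 (le_normalizer hs),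
      mem_normalizer_iff_map_conj_eq.1 ((normalizer_eq_top_iff.2 ‹D.Normal›).ge (mem_top s))]
  exact hM (top_le_iff.1 (hsup ▸ sup_le (hmax _ hSN hN) (le_sup_left.trans (hmax _ le_sup_right hD))))

theorem Hyp0.inf_le_pCore (h : Hyp0 p S M) {D : Subgroup G} [D.Normal] (hD : D ⊔ (S : Subgroup G) ≠ ⊤) :
    (S : Subgroup G) ⊓ D ≤ Cfsg.pCore p G := inf_le_pCore' h.hM h.hmax hD

/-- `O_p(G/C) = 1` for a normal `C` above `O_p(G)` not covering `G` with `S`. -/
theorem op1_of (hM : M ≠ ⊤) (hmax : ∀ H : Subgroup G, (S : Subgroup G) ≤ H → H ≠ ⊤ → H ≤ M)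
    {C D : Subgroup G} [hCn : C.Normal] [hDn : D.Normal] (hQC : Cfsg.pCore p G ≤ C)
    (hCS' : C ⊔ (S : Subgroup G) ≠ ⊤) (hD : ∀ g ∈ D, ∃ k : ℕ, g ^ p ^ k ∈ C) : D ≤ C := by
  -- `D ≤ C ⊔ S`
  haveI hDC : (D ⊔ C).Normal := inferInstance
  have hpq : IsPGroup p ↥((D ⊔ C).map (QuotientGroup.mk' C)) := by
    rw [Subgroup.map_sup, QuotientGroup.map_mk'_self, sup_bot_eq]
    rintro ⟨_, g, hg, rfl⟩
    obtain ⟨k, hk⟩ := hD g hg
    exact ⟨k, Subtype.ext (by
      simp only [SubmonoidClass.coe_pow, OneMemClass.coe_one, ← map_pow]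
      exact (QuotientGroup.eq_one_iff _).2 hk)⟩
  let Sq := S.mapSurjective (QuotientGroup.mk'_surjective C)
  have hle : (D ⊔ C).map (QuotientGroup.mk' C) ≤ (S : Subgroup G).map (QuotientGroup.mk' C) := by
    rw [← Sylow.coe_mapSurjective (QuotientGroup.mk'_surjective C) S]
    haveI := hDC.map (QuotientGroup.mk' C) (QuotientGroup.mk'_surjective C)
    exact hpq.le_sylow_of_normal Sq
  have hDS : D ≤ C ⊔ (S : Subgroup G) := by
    intro d hd
    obtain ⟨s, hs, e⟩ := hle (mem_map_of_mem _ (mem_sup_left hd))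
    have h1 : s⁻¹ * d ∈ C := QuotientGroup.eq.1 e
    have := mul_mem (mem_sup_right hs : s ∈ C ⊔ (S : Subgroup G)) (mem_sup_left h1)
    rwa [mul_inv_cancel_left] at this
  have hDSne : D ⊔ (S : Subgroup G) ≠ ⊤ := fun e =>
    hCS' (top_le_iff.1 (e ▸ sup_le hDS le_sup_right))
  have h1 : (S : Subgroup G) ⊓ D ≤ C := (inf_le_pCore' hM hmax hDSne).trans hQC
  intro d hd
  -- some power prime to `p` and a `p`-power of `d` lie in `C`
  obtain ⟨k, hk⟩ := hD d hd
  set N := orderOf d / p ^ (orderOf d).factorization p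
  have hNcop : N.Coprime (p ^ k) := ((Nat.coprime_ordCompl Fact.out (orderOf_pos d).ne').pow_left k).symm
  by_contra hdC
  -- the `p`-part of `d` is conjugate into `S ∩ D`
  have hpp : d ^ N ∈ C := by
    have hpg : IsPGroup p (Subgroup.zpowers (d ^ N)) := IsPGroup.of_card (n := (orderOf d).factorization p) (by
      rw [Nat.card_zpowers, orderOf_pow' d (by
        exact (Nat.ordCompl_pos p (orderOf_pos d).ne').ne'), Nat.gcd_eq_right (Nat.ordCompl_dvd _ _)]
      exact Nat.div_div_self (Nat.ordProj_dvd _ _) (orderOf_pos d).ne')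
    obtain ⟨P, hP⟩ := hpg.exists_le_sylow
    obtain ⟨g, hg⟩ := MulAction.exists_smul_eq G P S
    have hm : g * d ^ N * g⁻¹ ∈ (S : Subgroup G) ⊓ D := by
      refine ⟨?_, hDn.conj_mem _ (pow_mem hd N) g⟩
      rw [← hg]
      exact (H1.mem_smul_sylow p g _).2 (by simpa [mul_assoc] using hP (mem_zpowers _))
    have := hCn.conj_mem _ (h1 hm) g⁻¹
    simpa [mul_assoc] using this
  refine hdC ?_
  obtain ⟨a, b, hab⟩ := (Nat.isCoprime_iff_coprime.2 hNcop)
  have : d = (d ^ N) ^ a * (d ^ p ^ k) ^ b := by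
    rw [← zpow_natCast, ← zpow_natCast d (p ^ k), ← zpow_mul, ← zpow_mul, ← zpow_add, mul_comm (N : ℤ),
      mul_comm ((p ^ k : ℕ) : ℤ), hab, zpow_one]
  rw [this]
  exact mul_mem (zpow_mem hpp a) (zpow_mem hk b)


/-- The subgroup `V`. -/
theorem exists_V (h : Hyp0 p S M) : ∃ V : Subgroup G, VData p S V := by
  obtain ⟨Z, hZS, hZC, hZe, z, hzZ, hz⟩ := h.homega
  set Q := Cfsg.pCore p G with hQdef
  haveI : Q.Normal := H19.pCore_normal p G
  have hQS : Q ≤ (S : Subgroup G) := IsPGroup.le_sylow_of_normal (H19.pCore_isPGroup p) S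
  have hZQ : Z ≤ Q ⊓ centralizer (Q : Set G) := fun x hx => by
    have hxC : x ∈ centralizer (Q : Set G) := centralizer_le (SetLike.coe_subset_coe.2 hQS) (hZC hx)
    exact ⟨h.hC hxC, hxC⟩
  set W := Q ⊓ centralizer (Q : Set G)
  haveI : W.Normal := inferInstance
  have hWc : ∀ a ∈ W, ∀ b ∈ W, a * b = b * a := fun a ha b hb => mem_centralizer_iff.1 hb.2 a ha.1
  let V := normalClosure (Z : Set G)
  have hVW : V ≤ W := normalClosure_le_normal hZQ
  let E : Subgroup G :=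
    { carrier := {x | x ∈ W ∧ x ^ p = 1}
      one_mem' := ⟨one_mem _, one_pow _⟩
      mul_mem' := fun {x y} hx hy => ⟨mul_mem hx.1 hy.1, by
        rw [(show Commute x y from hWc x hx.1 y hy.1).mul_pow, hx.2, hy.2, one_mul]⟩
      inv_mem' := fun {x} hx => ⟨inv_mem hx.1, by rw [inv_pow, hx.2, inv_one]⟩ }
  haveI : E.Normal := ⟨fun x hx g => ⟨(inferInstance : W.Normal).conj_mem x hx.1 g, by
    rw [conj_pow, hx.2, mul_one, mul_inv_cancel]⟩⟩
  have hVE : V ≤ E := normalClosure_le_normal fun x hx => ⟨hZQ hx, hZe x hx⟩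
  have hZV : Z ≤ V := subset_normalClosure
  have hzV : z ∈ V := hZV hzZ
  have hzS : z ∈ centralizer ((S : Subgroup G) : Set G) := hZC hzZ
  have hCS : centralizer (V : Set G) ⊔ (S : Subgroup G) ≠ ⊤ := by
    intro e
    refine hz (mem_centralizer_iff.2 fun g _ => ?_)
    have hle : centralizer (V : Set G) ⊔ (S : Subgroup G) ≤ centralizer {z} := sup_le
      (centralizer_le (Set.singleton_subset_iff.2 hzV)) fun s hs =>
        mem_centralizer_singleton_iff.2 (mem_centralizer_iff.1 hzS s hs)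
    exact mem_centralizer_singleton_iff.1 (hle (e ▸ mem_top g))
  haveI hVn : V.Normal := normalClosure_normal
  haveI hCn : (centralizer (V : Set G)).Normal := inferInstance
  refine ⟨V, ⟨hVn, fun a ha b hb => hWc a (hVW ha) b (hVW hb), fun v hv => (hVE hv).2,
    hVW.trans inf_le_left, ?_, h.inf_le_pCore hCS, hCS, fun D hDn hD => ?_, ⟨z, hzV, hzS, hz⟩, ?_⟩⟩
  · exact le_centralizer_iff.1 (hVW.trans inf_le_right)
  · haveI := hDn
    exact op1_of h.hM h.hmax (le_centralizer_iff.1 (hVW.trans inf_le_right)) hCS hD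
  · exact normalClosure_le_normal fun x hx => subset_normalClosure ⟨hZV hx, hZC hx⟩

end Cfsg.Agent.H73.Focal
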