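import Cfsg.Agent.H73.Focal.Local
import Cfsg.Agent.H73.Focal.Count
import Cfsg.Agent.S2764
import Cfsg.Agent.S2765
import Cfsg.Agent.H64.SL2Sylow
import Mathlib

/-! The layers of the local subgroup. -/

set_option autoImplicit false
set_option linter.style.haveILetI false
set_option maxHeartbeats 1000000

namespace Cfsg.Agent.H73.Focal

open Subgroup
open scoped commutatorElement Matrix

universe u

variable {G : Type u} [Group G] [Finite G] {p : ℕ} [Fact p.Prime]

/-- What the quadratic argument needs from the local subgroup. -/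
structure XData (p : ℕ) (S : Sylow p G) (X J : Subgroup G) (z : G) (R U₁ W₁ U₂ W₂ : Subgroup G) : Prop where
  layers : TwoLayers p X J R z U₁ W₁ U₂ W₂
  hQR : Cfsg.pCore p G ⊓ X ≤ R
  hz : z * z = 1
  hzc : ∀ x ∈ X, z * x * z⁻¹ * x⁻¹ ∈ Cfsg.pCore p G

/-- Hypercentral layers are not moved by `p'`-elements. -/
theorem triv_of_iter {X : Type u} [Group X] [Finite X] {A B : Subgroup X} [A.Normal] [B.Normal]
    (hB : IsPGroup p B) (hAB : A ≤ B) {k : ℕ} (hk : Cfsg.iterCommutator B ⊤ k ≤ A) {x : X}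
    (hx : (orderOf x).Coprime p) : ∀ b ∈ B, ⁅x, b⁆ ∈ A := by
  have hin : ∀ j, Cfsg.iterCommutator B ⊤ j ≤ B := by
    intro j
    induction j with
    | zero => exact le_rfl
    | succ j ih => exact (commutator_mono ih le_rfl).trans (commutator_le_left B ⊤)
  suffices hmain : ∀ i j, j + i = k → ∀ b ∈ Cfsg.iterCommutator B ⊤ j, ⁅x, b⁆ ∈ A from
    fun b hb => hmain k 0 (by omega) b hb
  intro i
  induction i with
  | zero =>
    intro j hj b hb
    obtain rfl : j = k := by omega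
    rw [commutatorElement_def]
    exact A.mul_mem ((inferInstance : A.Normal).conj_mem b (hk hb) x) (A.inv_mem (hk hb))
  | succ i ih =>
    intro j hj b hb
    have hc : ⁅x, b⁆ ∈ Cfsg.iterCommutator B ⊤ (j + 1) := by
      rw [← commutatorElement_inv]
      exact inv_mem (commutator_mem_commutator hb (mem_top x))
    refine comm_mem_of_twice hB hx (hin j hb) (hin _ hc) hAB ?_ (ih (j + 1) (by omega) _ hc) ?_
    · exact le_top.trans (normalizer_eq_top_iff.2 inferInstance).ge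
    · exact (normalizer_eq_top_iff.2 (inferInstance : A.Normal)).ge (mem_top x)

theorem exists_xdata (hp2 : p ≠ 2) {S : Sylow p G} {M V X J : Subgroup G} {u : G} {F : Type} [Field F]
    [Fintype F] {n : ℕ} (h : Hyp p S M) (d : VData p S V) (hn : 1 ≤ n) (hF : Fintype.card F = p ^ n)
    (L : LData p S V X J u F) :
    ∃ z R U₁ W₁ U₂ W₂, XData p S X J z R U₁ W₁ U₂ W₂ ∧ ¬ Triv p X ⊥ V := by
  classical
  haveI := H19.pCore_normal p G
  haveI : CharP F p := H72.charP_of_card hF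
  have h2 : (2 : F) ≠ 0 := fun e => hp2 ((Nat.prime_dvd_prime_iff_eq Fact.out Nat.prime_two).1
    ((CharP.cast_eq_zero_iff F p 2).1 (by exact_mod_cast e)))
  set Q := Cfsg.pCore p G
  set O := Cfsg.pCore p ↥X
  haveI hOn : O.Normal := H19.pCore_normal p ↥X
  have hOp : IsPGroup p O := H19.pCore_isPGroup p
  obtain ⟨P, hP, hP'⟩ := L.syl.exists_sylow
  have hQO : Q.subgroupOf X ≤ O := H19.le_pCore inferInstance
    ((H19.pCore_isPGroup (G := G) p).comap_subtype)
  have hE₁ : centralizer (O : Set ↥X) ≤ O := by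
    refine H19.le_pCore inferInstance (isPGroup_of_coprime_trivial fun x hx hxp => ?_)
    have hxQ : (x : G) ∈ centralizer (Q : Set G) := mem_centralizer_iff.2 fun q hq => by
      have hm : ⁅(x : G), q⁆ ∈ Q := by
        rw [commutatorElement_def]
        exact Q.mul_mem ((inferInstance : Q.Normal).conj_mem q hq x) (Q.inv_mem hq)
      have hmX := L.hQX x x.2 q hq
      have h2' : ⁅(x : G), ⁅(x : G), q⁆⁆ ∈ (⊥ : Subgroup G) := by
        rw [mem_bot, commutatorElement_eq_one_iff_mul_comm]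
        exact (congrArg Subtype.val (mem_centralizer_iff.1 hx ⟨_, hmX⟩ (hQO hm))).symm
      have e := comm_mem_of_twice (H19.pCore_isPGroup (G := G) p) (by rwa [Subgroup.orderOf_coe]) hq hm bot_le
        (by rw [show normalizer ((⊥ : Subgroup G) : Set G) = ⊤ from normalizer_eq_top_iff.2 inferInstance]; exact le_top)
        h2' (by rw [show normalizer ((⊥ : Subgroup G) : Set G) = ⊤ from normalizer_eq_top_iff.2 inferInstance]; exact mem_top _)
      rw [mem_bot, commutatorElement_eq_one_iff_mul_comm] at e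
      exact e.symm
    exact Subtype.ext (eq_one_of_coprime_of_pgroup (H19.pCore_isPGroup (G := G) p)
      (by rwa [Subgroup.orderOf_coe]) (h.hC hxQ))
  have hE₂ : ∃! N : Subgroup ↥X, IsCoatom N ∧ (P : Subgroup ↥X) ≤ N := by
    obtain ⟨N, hJN, hNX, hne, hmax⟩ := L.uniq
    have hnet : N.subgroupOf X ≠ ⊤ := fun e => hne (le_antisymm hNX (subgroupOf_eq_top.1 e))
    have hle : (P : Subgroup ↥X) ≤ N.subgroupOf X := by rw [hP']; exact fun x hx => hJN hx
    have key : ∀ N' : Subgroup ↥X, (P : Subgroup ↥X) ≤ N' → N' ≠ ⊤ → N' ≤ N.subgroupOf X := by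
      intro N' hN' hNt x hx
      refine hmax (N'.map X.subtype) (hP ▸ map_mono hN') (map_subtype_le N') (fun e => hNt ?_)
        (mem_map_of_mem _ hx)
      exact map_injective X.subtype_injective (e.trans (by rw [← MonoidHom.range_eq_map, range_subtype]))
    refine ⟨N.subgroupOf X, ⟨⟨hnet, fun N' hN' => ?_⟩, hle⟩, fun N' ⟨hN', hTN⟩ => ?_⟩
    · by_contra hNt
      exact hN'.not_ge (key N' (hle.trans hN'.le) hNt)
    · exact (hN'.le_iff.1 (key N' hTN hN'.1)).resolve_left hnet |>.symm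
  obtain ⟨φ, hφs, hφC, hφc⟩ := L.hchi
  let f : ↥X →* Matrix.ProjectiveSpecialLinearGroup (Fin 2) F := (QuotientGroup.mk' (Subgroup.center _)).comp φ
  have hfs : Function.Surjective f := (QuotientGroup.mk'_surjective _).comp hφs
  have hd : ∀ T : Subgroup ↥(P : Subgroup ↥X), T ≠ ⊥ → T.Characteristic →
      ¬ (T.map (P : Subgroup ↥X).subtype).Normal := by
    intro T hT hTc hTn
    set T₀ := (T.map (P : Subgroup ↥X).subtype).map X.subtype
    have hmap : ∀ x ∈ T₀, x ∈ J := fun x hx => hP ▸ map_mono (map_subtype_le T) hx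
    have hbot : T₀ = ⊥ := by
      refine L.hnc h.hnc T₀ hmap (fun β x hx => ?_) fun g hg => ?_
      · let e : ↥(P : Subgroup ↥X) ≃* J :=
          ((P : Subgroup ↥X).equivMapOfInjective X.subtype X.subtype_injective).trans (MulEquiv.subgroupCongr hP)
        have he : ∀ y, ((e y : J) : G) = ((y : ↥X) : G) := fun y => rfl
        obtain ⟨_, ⟨y, hy, rfl⟩, hyx⟩ := hx
        have hxe : x = e y := Subtype.ext (hyx.symm.trans (he y).symm)
        have hfix := (hTc.fixed (e.trans (β.trans e.symm))).ge hy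
        refine ⟨_, ⟨e.symm (β x), ?_, rfl⟩, ?_⟩
        · rw [hxe]; exact hfix
        · show (((e.symm (β x) : ↥(P : Subgroup ↥X)) : ↥X) : G) = (β x : G)
          rw [← he, e.apply_symm_apply]
      · refine mem_normalizer_iff_map_conj_eq.2 (eq_of_le_of_card_ge ?_
          (card_map_of_injective (MulAut.conj g).injective).ge)
        rintro _ ⟨_, ⟨y, hy, rfl⟩, rfl⟩
        exact ⟨⟨g, hg⟩ * y * ⟨g, hg⟩⁻¹, hTn.conj_mem y hy _, rfl⟩
    rw [map_eq_bot_iff_of_injective _ X.subtype_injective, map_eq_bot_iff_of_injective _ (subtype_injective _)] at hbot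
    exact hT hbot
  obtain ⟨⟨eX⟩, hnat⟩ := S2764.result P hE₁ hE₂ f.ker F n hn hF
    ⟨QuotientGroup.quotientKerEquivOfSurjective f hfs⟩ hd
  have hcases := S2765.result P hE₁ hE₂ f.ker F n hn hF
    ⟨QuotientGroup.quotientKerEquivOfSurjective f hfs⟩ hd
  -- surjections to `SL₂` have kernel `O_p(X)` once it is a `p`-group
  have hidx : O.index = Nat.card (Matrix.SpecialLinearGroup (Fin 2) F) := Nat.card_congr eX.toEquiv
  have hker : ∀ ψ : ↥X →* Matrix.SpecialLinearGroup (Fin 2) F, Function.Surjective ψ → ψ.ker = O := by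
    intro ψ hψ
    have h1 : ψ.ker.index = O.index := by
      rw [Subgroup.index_ker, hidx, MonoidHom.range_eq_top.2 hψ, Subgroup.card_top]
    have h3 : Nat.card ψ.ker = Nat.card O := by
      have e1 := ψ.ker.card_mul_index
      have e2 := O.card_mul_index
      rw [h1] at e1
      exact Nat.eq_of_mul_eq_mul_right (Nat.pos_of_ne_zero Subgroup.index_ne_zero_of_finite) (e1.trans e2.symm)
    obtain ⟨k, hk⟩ := IsPGroup.iff_card.1 hOp
    exact eq_of_le_of_card_ge (H19.le_pCore inferInstance (IsPGroup.of_card (h3.trans hk))) h3.ge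
  have hφk := hker φ hφs
  obtain ⟨z₀, hz₀⟩ := hφs (-1)
  set z := z₀ ^ Nat.card O
  have hodd : Odd (Nat.card O) := by
    obtain ⟨k, hk⟩ := IsPGroup.iff_card.1 hOp
    exact hk ▸ ((Fact.out : p.Prime).odd_of_ne_two hp2).pow
  have hφz : φ z = -1 := by rw [map_pow, hz₀, hodd.neg_one_pow]
  have hzz : z * z = 1 := by
    have hm : z₀ * z₀ ∈ O := by rw [← hφk, MonoidHom.mem_ker, map_mul, hz₀, neg_mul_neg, one_mul]
    have := congrArg Subtype.val (pow_card_eq_one' (G := O) (x := ⟨_, hm⟩))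
    simp only [SubmonoidClass.coe_pow, OneMemClass.coe_one] at this
    rwa [(Commute.refl z₀).mul_pow] at this
  have hne1 : φ z ≠ 1 := by
    rw [hφz]
    intro e
    have := congrArg (fun m : Matrix.SpecialLinearGroup (Fin 2) F => (m : Matrix (Fin 2) (Fin 2) F) 0 0) e
    simp only [Matrix.SpecialLinearGroup.coe_neg, Matrix.SpecialLinearGroup.coe_one, Matrix.neg_apply,
      Matrix.one_apply_eq] at this
    exact h2 (by linear_combination -this)
  have hzo : z ∉ O := fun hm => hne1 (MonoidHom.mem_ker.1 (hφk.symm ▸ hm))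
  set R := O.map X.subtype
  set zG : G := (z : G)
  have hzp : (orderOf zG).Coprime p := by
    refine Nat.Coprime.coprime_dvd_left (orderOf_dvd_of_pow_eq_one (n := 2) ?_)
      ((Nat.coprime_primes Nat.prime_two Fact.out).2 hp2.symm)
    rw [pow_two]
    exact congrArg Subtype.val hzz
  have hJX := L.syl.le
  have hRX : X ≤ normalizer (R : Set G) := fun g hg => by
    refine mem_normalizer_iff_map_conj_eq.2 (eq_of_le_of_card_ge ?_
      (card_map_of_injective (MulAut.conj g).injective).ge)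
    rintro _ ⟨_, ⟨y, hy, rfl⟩, rfl⟩
    exact ⟨⟨g, hg⟩ * y * ⟨g, hg⟩⁻¹, hOn.conj_mem y hy _, rfl⟩
  have hXn : ∀ N : Subgroup ↥X, N.Normal → X ≤ normalizer ((N.map X.subtype : Subgroup G) : Set G) := fun N hN g hg => by
    refine mem_normalizer_iff_map_conj_eq.2 (eq_of_le_of_card_ge ?_
      (card_map_of_injective (MulAut.conj g).injective).ge)
    rintro _ ⟨_, ⟨y, hy, rfl⟩, rfl⟩
    exact ⟨⟨g, hg⟩ * y * ⟨g, hg⟩⁻¹, hN.conj_mem y hy _, rfl⟩
  -- chief factors give pieces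
  have hpiece : ∀ U W : Subgroup ↥X, U ≤ O → Cfsg.IsChiefFactor U W → ¬ ⁅U, (⊤ : Subgroup ↥X)⁆ ≤ W →
      Piece X J zG (U.map X.subtype) (W.map X.subtype) := by
    intro U W hUO hch hnc
    obtain ⟨hlt, hUn, hWn, hirr⟩ := hch
    haveI := hWn
    obtain ⟨-, ρ', ψ, hρs, hρk, hact⟩ := hnat U W hUO ⟨hlt, hUn, hWn, hirr⟩ hnc
    let π := QuotientGroup.mk' W
    let ρ : ↥X →* Matrix.SpecialLinearGroup (Fin 2) F :=
      ρ'.comp ((MonoidHom.codRestrict π ⊤ fun x => mem_top _))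
    have hρsurj : Function.Surjective ρ := fun m => by
      obtain ⟨⟨y, hy⟩, rfl⟩ := hρs m
      obtain ⟨x, rfl⟩ := QuotientGroup.mk'_surjective W y
      exact ⟨x, rfl⟩
    have hρO := hker ρ hρsurj
    have hψ : ∀ (x : ↥X) (a : ↥X) (ha : a ∈ U), ψ (Additive.ofMul ⟨π (x * a * x⁻¹), mem_map_of_mem π (hUn.conj_mem a ha x)⟩) =
        ((ρ x : Matrix.SpecialLinearGroup (Fin 2) F) : Matrix (Fin 2) (Fin 2) F) *ᵥ
          ψ (Additive.ofMul ⟨π a, mem_map_of_mem π ha⟩) := by
      intro x a ha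
      obtain ⟨w, hw, he⟩ := hact ⟨π x, mem_top _⟩ ⟨π a, mem_map_of_mem π ha⟩
      refine Eq.trans ?_ he
      congr 2
      exact Subtype.ext (by rw [hw]; simp [map_mul, map_inv])
    have hρz : ρ z = -1 := by
      have h1 : ρ z * ρ z = 1 := by rw [← map_mul, hzz, map_one]
      rcases H64.SL2.eq_one_or_neg_one_of_sq h2 (by rw [pow_two]; exact h1) with e | e
      · exact absurd (hρO ▸ MonoidHom.mem_ker.2 e) hzo
      · exact e
    refine ⟨map_mono hlt.le, hXn U hUn, hXn W hWn, fun H hH hWH hHU => ?_, ?_, ?_⟩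
    · have hHX : H ≤ X := hHU.trans (map_subtype_le U)
      have hHn : (H.subgroupOf X).Normal := (normal_subgroupOf_iff_le_normalizer hHX).2 hH
      rcases hirr _ hHn (fun w hw => hWH (mem_map_of_mem _ hw)) (fun x hx => by
        obtain ⟨y, hy, e⟩ := hHU hx
        rwa [← show y = x from Subtype.ext e]) with e | e
      · exact Or.inl (by rw [← e, map_subgroupOf_eq_of_le hHX])
      · exact Or.inr (by rw [← e, map_subgroupOf_eq_of_le hHX])
    · rintro _ ⟨a, ha, rfl⟩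
      refine ⟨z * a * z⁻¹ * a, ?_, rfl⟩
      have e : ψ (Additive.ofMul (⟨π (z * a * z⁻¹), mem_map_of_mem π (hUn.conj_mem a ha z)⟩ *
          ⟨π a, mem_map_of_mem π ha⟩)) = 0 := by
        rw [ofMul_mul, map_add, hψ z a ha, hρz, Matrix.SpecialLinearGroup.coe_neg,
          Matrix.SpecialLinearGroup.coe_one, Matrix.neg_mulVec, Matrix.one_mulVec, neg_add_cancel]
      have e1 : Additive.ofMul (⟨π (z * a * z⁻¹), mem_map_of_mem π (hUn.conj_mem a ha z)⟩ *
          ⟨π a, mem_map_of_mem π ha⟩ : ↥(U.map π)) = 0 := ψ.injective (e.trans (map_zero ψ).symm)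
      have e2 := congrArg (fun b : Additive ↥(U.map π) => ((Additive.toMul b : ↥(U.map π)) : ↥X ⧸ W)) e1
      exact (QuotientGroup.eq_one_iff _).1 ((map_mul π _ _).trans e2)
    · rintro g hg _ ⟨a, ha, rfl⟩
      set g' : ↥X := ⟨g, hJX hg⟩
      refine ⟨⁅g', ⁅g', a⁆⁆, ?_, rfl⟩
      have hm : ∀ b ∈ U, ⁅g', b⁆ ∈ U := fun b hb => by
        rw [commutatorElement_def]; exact U.mul_mem (hUn.conj_mem b hb g') (U.inv_mem hb)
      set Mg : Matrix (Fin 2) (Fin 2) F := ((ρ g' : Matrix.SpecialLinearGroup (Fin 2) F) : Matrix (Fin 2) (Fin 2) F)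
      have key : ∀ b (hb : b ∈ U), ψ (Additive.ofMul ⟨π ⁅g', b⁆, mem_map_of_mem π (hm b hb)⟩) =
          (Mg - 1) *ᵥ ψ (Additive.ofMul ⟨π b, mem_map_of_mem π hb⟩) := by
        intro b hb
        rw [Matrix.sub_mulVec, Matrix.one_mulVec, ← hψ g' b hb, ← map_sub, ← ofMul_div]
        congr 2
        exact Subtype.ext (show π ⁅g', b⁆ = π (g' * b * g'⁻¹) / π b by
          rw [← map_div, commutatorElement_def, div_eq_mul_inv])
      obtain ⟨k, hk⟩ := S.2 ⟨g, L.hJS hg⟩
      have hMg : (Mg - 1) * (Mg - 1) = 0 := by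
        refine sub_one_sq (p := p) (k := k) ?_
        rw [← Matrix.SpecialLinearGroup.coe_pow, ← map_pow,
          show g' ^ p ^ k = 1 from Subtype.ext (congrArg Subtype.val hk :), map_one, Matrix.SpecialLinearGroup.coe_one]
      have e := key _ (hm a ha)
      rw [key a ha, Matrix.mulVec_mulVec, hMg, Matrix.zero_mulVec] at e
      have e1 := ψ.injective (e.trans (map_zero ψ).symm)
      have e2 := congrArg (fun b : Additive ↥(U.map π) => ((Additive.toMul b : ↥(U.map π)) : ↥X ⧸ W)) e1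
      exact (QuotientGroup.eq_one_iff _).1 e2
  have htriv : ∀ A B : Subgroup ↥X, A.Normal → B.Normal → B ≤ O → A ≤ B →
      (∃ k, Cfsg.iterCommutator B ⊤ k ≤ A) → Triv p X (A.map X.subtype) (B.map X.subtype) := by
    rintro A B hA hB hBO hAB ⟨k, hk⟩ x hx hxp _ ⟨b, hb, rfl⟩
    haveI := hA; haveI := hB
    exact ⟨⁅(⟨x, hx⟩ : ↥X), b⁆, triv_of_iter (hOp.to_le hBO) hAB hk
      (by rwa [← Subgroup.orderOf_coe]) b hb, rfl⟩
  have hbot : (⊥ : Subgroup ↥X).map X.subtype = ⊥ := Subgroup.map_bot _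
  have hnt : ¬ Triv p X ⊥ V := fun hT => hne1 (hφC z (mem_centralizer_iff.2 fun v hv => by
    have e := hT zG z.2 hzp v hv
    rw [mem_bot, commutatorElement_eq_one_iff_mul_comm] at e
    exact e.symm))
  have hzc : ∀ x ∈ X, zG * x * zG⁻¹ * x⁻¹ ∈ Q := by
    intro x hx
    set o : ↥X := z * ⟨x, hx⟩ * z⁻¹ * ⟨x, hx⟩⁻¹ with ho'
    have hzn : φ z * φ ⟨x, hx⟩ * (φ z)⁻¹ * (φ ⟨x, hx⟩)⁻¹ = 1 := by
      rw [hφz, neg_one_mul, show (-1 : Matrix.SpecialLinearGroup (Fin 2) F)⁻¹ = -1 from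
        inv_eq_of_mul_eq_one_right (by rw [neg_one_mul, neg_neg]), mul_neg, mul_one, neg_neg, mul_inv_cancel]
    have ho : φ o = 1 := by simp only [o, map_mul, map_inv, hzn]
    have hoO : o ∈ O := hφk ▸ MonoidHom.mem_ker.2 ho
    have hzo' : z * o * z⁻¹ = o⁻¹ := by
      have hzi : z⁻¹ = z := inv_eq_of_mul_eq_one_right hzz
      simp only [o, mul_inv_rev, inv_inv, hzi]
      calc z * (z * ⟨x, hx⟩ * z * ⟨x, hx⟩⁻¹) * z = (z * z) * (⟨x, hx⟩ * z * ⟨x, hx⟩⁻¹ * z) := by group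
        _ = _ := by rw [hzz, one_mul]; group
    have hC : ((o * o : ↥X) : G) ∈ centralizer (V : Set G) := by
      have e : ⁅(z : G), (o : G)⁆ = (((o * o)⁻¹ : ↥X) : G) := by
        have e' : (⁅z, o⁆ : ↥X) = (o * o)⁻¹ := by rw [commutatorElement_def, hzo', ← mul_inv_rev]
        exact congrArg Subtype.val e'
      have := hφc o z ho hzz
      rw [e, Subgroup.coe_inv] at this
      simpa using inv_mem this
    have hoS : (o : G) ∈ (S : Subgroup G) := by
      refine L.hJS ?_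
      have : o ∈ (P : Subgroup ↥X) := IsPGroup.le_sylow_of_normal hOp P hoO
      rw [← hP]
      exact mem_map_of_mem X.subtype this
    have hoo : (o : G) * (o : G) ∈ Q := d.SC ⟨mul_mem hoS hoS, by simpa using hC⟩
    obtain ⟨k, hk⟩ := S.2 ⟨o, hoS⟩
    have hcop : Nat.Coprime 2 (orderOf (o : G)) := Nat.Coprime.coprime_dvd_right
      (orderOf_dvd_of_pow_eq_one (congrArg Subtype.val hk :))
      (((Nat.coprime_primes Nat.prime_two Fact.out).2 hp2.symm).pow_right k)
    obtain ⟨m, hm⟩ := exists_pow_eq_self_of_coprime hcop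
    show (o : G) ∈ Q
    rw [← hm, pow_two]
    exact pow_mem hoo m
  have hQR : Q ⊓ X ≤ R := fun g hg => ⟨⟨g, hg.2⟩, hQO hg.1, rfl⟩
  have hRp : IsPGroup p R := hOp.map _
  rcases hcases with ⟨-, -, -, -, U, W, hWU, hUO, hch, hnc, ⟨k, hk⟩, hk'⟩ |
    ⟨-, -, -, -, U₁, W₁, U₂, W₂, hW₁U₁, h12, hW₂U₂, hU₂O, hch₁, hch₂, hnc₁, hnc₂, ⟨k, hk⟩, hk₂, hk₃⟩
  · refine ⟨zG, R, U.map X.subtype, W.map X.subtype, R, R,
      ⟨⟨hRp, map_subtype_le O, hRX, z.2, hJX, hpiece U W hUO hch hnc, ?_, map_mono hUO, le_rfl, ?_, ?_, ?_⟩,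
        hQR, congrArg Subtype.val hzz, hzc⟩, hnt⟩
    · exact ⟨le_rfl, hRX, hRX, fun H _ h1 h2 => Or.inl (le_antisymm h2 h1),
        fun a ha => R.mul_mem ((mem_normalizer_iff.1 (hRX z.2) a).1 ha) ha,
        fun g hg a ha => by
          have h1 : ∀ b ∈ R, ⁅g, b⁆ ∈ R := fun b hb => by
            rw [commutatorElement_def]
            exact R.mul_mem ((mem_normalizer_iff.1 (hRX (hJX hg)) b).1 hb) (R.inv_mem hb)
          exact h1 _ (h1 a ha)⟩
    · rw [← hbot]
      exact htriv ⊥ W inferInstance hch.2.2.1 (hWU.trans hUO) bot_le ⟨k, hk.le⟩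
    · exact htriv U O hch.2.1 hOn le_rfl hUO hk'
    · intro x hx hxp b hb
      rw [commutatorElement_def]
      exact R.mul_mem ((mem_normalizer_iff.1 (hRX hx) b).1 hb) (R.inv_mem hb)
  · refine ⟨zG, R, U₁.map X.subtype, W₁.map X.subtype, U₂.map X.subtype, W₂.map X.subtype,
      ⟨⟨hRp, map_subtype_le O, hRX, z.2, hJX, hpiece U₁ W₁ (h12.trans (hW₂U₂.trans hU₂O)) hch₁ hnc₁,
        hpiece U₂ W₂ hU₂O hch₂ hnc₂, map_mono h12, map_mono hU₂O, ?_, ?_, ?_⟩,
        hQR, congrArg Subtype.val hzz, hzc⟩, hnt⟩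
    · rw [← hbot]
      exact htriv ⊥ W₁ inferInstance hch₁.2.2.1 (hW₁U₁.trans (h12.trans (hW₂U₂.trans hU₂O))) bot_le ⟨k, hk.le⟩
    · exact htriv U₁ W₂ hch₁.2.1 hch₂.2.2.1 (hW₂U₂.trans hU₂O) h12 hk₂
    · exact htriv U₂ O hch₂.2.1 hOn le_rfl hU₂O hk₃

end Cfsg.Agent.H73.Focal
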